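import Cfsg.Agent.H886.Decomp

/-!
Overgroups `M` of the stabiliser of an orthogonal decomposition `D` which are *rigid*: `r_a r_b ∈ M` with `a`
in a member forces `b` in a member.  An element of a rigid `M` mapping one nonsingular vector of a member
into a member permutes the members.
-/

set_option autoImplicit false

namespace Cfsg.Agent.H886.Rigid

open QuadraticMap Cfsg.Agent.LieClassical.OrthCore Cfsg.Agent.LieClassical.OrthTrans
  Cfsg.Agent.LieClassical.OrthFinite Cfsg.Agent.LieClassical.OrthSimple Cfsg.Agent.H883.Bridge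
  Cfsg.Agent.H883.Root Cfsg.Agent.H883.Sub Cfsg.Agent.H886.Decomp

variable {F V : Type*} [Field F] [AddCommGroup V] [Module F V] {Q : QuadraticForm F V} {t : ℕ}
  {D : Fin t → Submodule F V} {p : Fin t → V →ₗ[F] V} {M : Subgroup (V ≃ₗ[F] V)}

/-- Vectors of norm `v` spanning `W`, any two of them with a common non-orthogonal neighbour. -/
def Conn (Q : QuadraticForm F V) (W : Submodule F V) (v : F) : Prop :=
  ∃ S : Set V, S.Nonempty ∧ (∀ b ∈ S, b ∈ W ∧ Q b = v) ∧ W ≤ Submodule.span F S ∧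
    ∀ b ∈ S, ∀ c ∈ S, ∃ d ∈ S, polar Q b d ≠ 0 ∧ polar Q d c ≠ 0

/-- `M` does not contain `r_a r_b` with `a` in a member and `b` outside the members. -/
def Rigid (Q : QuadraticForm F V) (D : Fin t → Submodule F V) (M : Subgroup (V ≃ₗ[F] V)) : Prop :=
  ∀ i, ∀ a ∈ D i, ∀ (ha : Q a ≠ 0) (b : V) (hb : Q b ≠ 0),
    refl Q a ha * refl Q b hb ∈ M → ∃ j, b ∈ D j

/-- Conjugation of a product of two reflections. -/
theorem conj_refl_mul_refl {m : V ≃ₗ[F] V} (hmO : m ∈ O Q) {a b : V} (ha : Q a ≠ 0) (hb : Q b ≠ 0)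
    (ha' : Q (m a) ≠ 0) (hb' : Q (m b) ≠ 0) :
    m * (refl Q a ha * refl Q b hb) * m⁻¹ = refl Q (m a) ha' * refl Q (m b) hb' := by
  rw [← refl_conj hmO ha ha', ← refl_conj hmO hb hb']
  group

/-- **The principle of rigid overgroups.** -/
theorem mem_stabFamily [FiniteDimensional F V] (h : Dec Q D p) (hG : Good Q) {k : ℕ} (hk : 0 < k)
    (hfin : ∀ i, Module.finrank F (D i) = k) (hMO : M ≤ O Q) (hH : stabFamily D ⊓ E Q ≤ M)
    (hR : Rigid Q D M) {i j : Fin t} {a : V} (ha : a ∈ D i) (hQa : Q a ≠ 0)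
    (hconn : ∀ l, Conn Q (D l) (Q a)) {m : V ≃ₗ[F] V} (hm : m ∈ M) (hma : m a ∈ D j) :
    m ∈ stabFamily D := by
  refine h.mem_stabFamily_of_forall hk hfin fun l => ?_
  obtain ⟨S, ⟨b₀, hb₀⟩, hS, hspan, hc⟩ := hconn l
  have hmO := hMO hm
  have key : ∀ b ∈ S, ∃ j', m b ∈ D j' := by
    intro b hb
    obtain ⟨hbl, hQb⟩ := hS b hb
    have hQb0 : Q b ≠ 0 := by rw [hQb]; exact hQa
    have h1 := hH (h.refl_mul_refl_mem hG ha hbl hQa hQb0 hQb.symm)
    have ha' : Q (m a) ≠ 0 := by rw [mem_O.1 hmO]; exact hQa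
    have hb' : Q (m b) ≠ 0 := by rw [mem_O.1 hmO]; exact hQb0
    have h2 := M.mul_mem (M.mul_mem hm h1) (M.inv_mem hm)
    rw [conj_refl_mul_refl hmO hQa hQb0 ha' hb'] at h2
    exact hR j _ hma ha' _ hb' h2
  have same : ∀ b c : V, ∀ j1 j2, m b ∈ D j1 → m c ∈ D j2 → polar Q b c ≠ 0 → j1 = j2 := by
    intro b c j1 j2 h1 h2 h3
    by_contra hne
    rw [← polar_map hmO] at h3
    exact h3 (h.orth j1 j2 hne _ h1 _ h2)
  obtain ⟨j₀, hj₀⟩ := key b₀ hb₀
  refine ⟨j₀, fun x hx => ?_⟩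
  have hall : S ⊆ (D j₀).comap (m : V →ₗ[F] V) := by
    intro c hcS
    obtain ⟨d, hd, h1, h2⟩ := hc b₀ hb₀ c hcS
    obtain ⟨j1, hj1⟩ := key d hd
    obtain ⟨j2, hj2⟩ := key c hcS
    have e1 := same _ _ _ _ hj₀ hj1 h1
    have e2 := same _ _ _ _ hj1 hj2 h2
    subst e1
    subst e2
    exact hj2
  exact (Submodule.span_le.2 hall) (hspan hx)

/-- The principle for a conjugate decomposition. -/
theorem mem_stabFamily_map' [FiniteDimensional F V] (h : Dec Q D p) (hG : Good Q) {k : ℕ}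
    (hk : 0 < k) (hfin : ∀ i, Module.finrank F (D i) = k) (hMO : M ≤ O Q)
    (hH : stabFamily D ⊓ E Q ≤ M) (hR : Rigid Q D M) {g : V ≃ₗ[F] V} (hg : g ∈ M) {i j : Fin t}
    {x : V} (hx : x ∈ (D i).map (g : V →ₗ[F] V)) (hQx : Q x ≠ 0)
    (hconn : ∀ l, Conn Q (D l) (Q x)) {m : V ≃ₗ[F] V} (hm : m ∈ M)
    (hmx : m x ∈ (D j).map (g : V →ₗ[F] V)) :
    m ∈ stabFamily (fun i => (D i).map (g : V →ₗ[F] V)) := by
  obtain ⟨a, ha, rfl⟩ := hx
  obtain ⟨b, hb, hbm⟩ := hmx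
  have hgO := hMO hg
  have hQa : Q (g a) = Q a := mem_O.1 hgO a
  have hQx' : Q (g a) ≠ 0 := hQx
  have hconn' : ∀ l, Conn Q (D l) (Q (g a)) := hconn
  rw [hQa] at hQx' hconn'
  refine mem_stabFamily_map ?_
  refine mem_stabFamily h hG hk hfin hMO hH hR (j := j) ha hQx' hconn'
    (M.mul_mem (M.mul_mem (M.inv_mem hg) hm) hg) ?_
  have e : (g⁻¹ * m * g) a = b := by
    show g.symm (m (g a)) = b
    rw [LinearEquiv.symm_apply_eq]
    exact hbm.symm
  rw [e]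
  exact hb

/-- For `g ∈ M` outside the stabiliser of `D` no nonsingular vector lies both in a member of `D` and in a
member of `g D`. -/
theorem not_mem_map [FiniteDimensional F V] (h : Dec Q D p) (hG : Good Q) {k : ℕ}
    (hk : 0 < k) (hfin : ∀ i, Module.finrank F (D i) = k) (hMO : M ≤ O Q)
    (hH : stabFamily D ⊓ E Q ≤ M) (hR : Rigid Q D M) {g : V ≃ₗ[F] V} (hg : g ∈ M)
    (hgD : g ∉ stabFamily D) {i j : Fin t} {x : V} (hx : x ∈ D i)
    (hx' : x ∈ (D j).map (g : V →ₗ[F] V)) (hQx : Q x ≠ 0)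
    (hconn : ∀ l, Conn Q (D l) (Q x)) : False := by
  obtain ⟨a, ha, rfl⟩ := hx'
  have hgO := hMO hg
  have hQa : Q (g a) = Q a := mem_O.1 hgO a
  have hQx' : Q (g a) ≠ 0 := hQx
  have hconn' : ∀ l, Conn Q (D l) (Q (g a)) := hconn
  rw [hQa] at hQx' hconn'
  exact hgD (mem_stabFamily h hG hk hfin hMO hH hR ha hQx' hconn' hg hx)

end Cfsg.Agent.H886.Rigid
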