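import Mathlib
import Cfsg.Prelude.Def_GeometricClasses
import Cfsg.Agent.H886.Between

/-!
Non-maximality of stabilisers of orthogonal decompositions: the cases without a common frame.
-/

set_option autoImplicit false
set_option linter.unusedSectionVars false
set_option linter.unusedSimpArgs false

namespace Cfsg.Agent.H886

open Matrix Cfsg.Geo QuadraticMap
open scoped MatrixGroups

variable {ι : Type} [Fintype ι] [DecidableEq ι] {F : Type*} [Field F]

theorem exists_five {t : ℕ} (ht : 5 ≤ t) :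
    ∃ i0 i1 i2 i3 i4 : Fin t, i0 ≠ i1 ∧ i0 ≠ i2 ∧ i0 ≠ i3 ∧ i0 ≠ i4 ∧ i1 ≠ i2 ∧ i1 ≠ i3 ∧
        i1 ≠ i4 ∧ i2 ≠ i3 ∧ i2 ≠ i4 ∧ i3 ≠ i4 := by
  refine ⟨⟨0, by omega⟩, ⟨1, by omega⟩, ⟨2, by omega⟩, ⟨3, by omega⟩, ⟨4, by omega⟩, ?_⟩
  simp [Fin.ext_iff]

theorem exists_four {t : ℕ} (ht : 4 ≤ t) :
    ∃ i0 i1 i2 i3 : Fin t, i0 ≠ i1 ∧ i0 ≠ i2 ∧ i0 ≠ i3 ∧ i1 ≠ i2 ∧ i1 ≠ i3 ∧ i2 ≠ i3 := by
  refine ⟨⟨0, by omega⟩, ⟨1, by omega⟩, ⟨2, by omega⟩, ⟨3, by omega⟩, ?_⟩
  simp [Fin.ext_iff]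

/-- A set closed under sums, described as the additive closure of a set preserved by an additive map. -/
theorem map_mem_closure (T : Set (ι → F)) (g : GL ι F)
    (h : ∀ v ∈ T, (g : Matrix ι ι F) *ᵥ v ∈ AddSubgroup.closure T) :
    ∀ v ∈ (AddSubgroup.closure T : Set (ι → F)),
      (g : Matrix ι ι F) *ᵥ v ∈ (AddSubgroup.closure T : Set (ι → F)) := by
  intro v hv
  refine AddSubgroup.closure_induction (p := fun x _ => (g : Matrix ι ι F) *ᵥ x ∈
    (AddSubgroup.closure T : Set (ι → F))) ?_ ?_ ?_ ?_ hv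
  · exact h
  · rw [Matrix.mulVec_zero]
    exact (AddSubgroup.closure T).zero_mem
  · intro x y _ _ hx hy
    rw [Matrix.mulVec_add]
    exact (AddSubgroup.closure T).add_mem hx hy
  · intro x _ hx
    rw [Matrix.mulVec_neg]
    exact (AddSubgroup.closure T).neg_mem hx

/-- Type `O_2^+(3)`. -/
theorem split_case [Finite F] (Q : (ι → F) → F) (hQ : IsNondegenerateQuadraticForm Q)
    (h3 : (3 : F) = 0) {t k : ℕ}
    (D : Fin t → Submodule F (ι → F)) (hD : IsOrthogonalMDecomposition Q k D) (ht : 5 ≤ t)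
    (a b : Fin t → (ι → F)) (ha : ∀ i, a i ∈ D i) (hb : ∀ i, b i ∈ D i)
    (hQa : ∀ i, Q (a i) = 1) (hQb : ∀ i, Q (b i) = -1) (hab : ∀ i, polar Q (a i) (b i) = 0)
    (hchar : ∀ i, ∀ x ∈ D i, Q x = 1 → x = a i ∨ x = - a i) :
    ∃ K : Subgroup (GL ι F), decompositionStabilizer D ⊓ omegaGL Q < K ∧ K < omegaGL Q := by
  have h2 : (2 : F) = -1 := by linear_combination h3
  have haa : ∀ i j, polar Q (a i) (a j) = if i = j then 2 else 0 := by
    intro i j
    by_cases hij : i = j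
    · subst hij
      simp [pl_self Q hQ, hQa]
    · simp [hij, hD.decomp.orthogonal i j hij _ (ha i) _ (ha j)]
  have hbb : ∀ i j, polar Q (b i) (b j) = if i = j then -2 else 0 := by
    intro i j
    by_cases hij : i = j
    · subst hij
      simp [pl_self Q hQ, hQb]
    · simp [hij, hD.decomp.orthogonal i j hij _ (hb i) _ (hb j)]
  have hab' : ∀ i j, polar Q (a i) (b j) = 0 := by
    intro i j
    by_cases hij : i = j
    · subst hij
      exact hab i
    · exact hD.decomp.orthogonal i j hij _ (ha i) _ (hb j)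
  have hba' : ∀ i j, polar Q (b i) (a j) = 0 := by
    intro i j
    rw [polar_comm]; exact hab' j i
  set T : Submodule F (ι → F) := Submodule.span F (Set.range a) with hT
  have haT : ∀ i, a i ∈ T := fun i => Submodule.subset_span ⟨i, rfl⟩
  obtain ⟨i0, i1, i2, i3, i4, h01, h02, h03, h04, h12, h13, h14, h23, h24, h34⟩ :=
    exists_five ht
  have hQd : ∀ i j, i ≠ j → Q (a i - a j) = 2 := by
    intro i j hij
    rw [q_sub Q hQ, hQa, hQa, haa, if_neg hij]; ring
  have h2ne : (2 : F) ≠ 0 := by rw [h2]; exact neg_ne_zero.2 one_ne_zero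
  obtain ⟨g1, hg1, hg1a⟩ := exists_refl_comm Q hQ (a i0 - a i1) (a i1 - a i2)
    (by rw [hQd _ _ h01]; exact h2ne) (by rw [hQd _ _ h12]; exact h2ne)
  have e1 : rf Q (a i1 - a i2) (a i0 - a i1) = a i0 - a i2 := by
    rw [rf_def, hQd _ _ h12]
    simp only [pl_sub_left Q hQ, pl_sub_right Q hQ, haa]
    simp [h01, h02, h12, h01.symm, h02.symm, h12.symm, h2ne]
  rw [e1] at hg1a
  have hQx : Q (a i0 + a i1 + b i2) = 1 := by
    rw [q_add Q hQ, q_add Q hQ]
    simp only [pl_add_left Q hQ, haa, hab', hQa, hQb]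
    simp [h01]
  obtain ⟨g2, hg2, hg2a⟩ := exists_refl_comm Q hQ (a i0 + a i1 + b i2) (a i0 - a i4)
    (by rw [hQx]; exact one_ne_zero) (by rw [hQd _ _ h04]; exact h2ne)
  have e2 : rf Q (a i0 - a i4) (a i0 + a i1 + b i2) = a i4 + a i1 + b i2 := by
    rw [rf_def, hQd _ _ h04]
    simp only [pl_sub_left Q hQ, pl_add_right Q hQ, haa, hab']
    simp [h01, h04.symm, h14.symm, h2ne]
    abel
  rw [e2] at hg2a
  have e3 : rf Q (a i4 + a i1 + b i2) (a i0) = a i0 := by
    rw [rf_def]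
    simp only [pl_add_left Q hQ, haa, hba']
    simp [h01.symm, h04.symm]
  have e4 : (g2 : Matrix ι ι F) *ᵥ (a i0) = a i0 - (2 : F) • (a i0 + a i1 + b i2) := by
    rw [hg2a, e3, rf_def, hQx]
    simp only [pl_add_left Q hQ, haa, hba']
    simp [h01.symm]
  refine between_of_stabilizing Q D hD (T : Set (ι → F)) ?_ g1 hg1 ?_ (i := i0) (j := i2)
    (j' := i0)
    (a i0 + b i0) (a i2) (b i0) h02.symm ((D i0).add_mem (ha _) (hb _)) (ha _)
    (hb _) ?_ ?_ g2 hg2 (a i0) (haT _) ?_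
  · intro g hg hgΩ w hw
    obtain ⟨σ, hσ⟩ := mem_decompositionStabilizer_apply hg
    refine Submodule.span_induction (p := fun x _ => (g : Matrix ι ι F) *ᵥ x ∈ T) ?_ ?_ ?_ ?_ hw
    · rintro _ ⟨i, rfl⟩
      rcases hchar (σ i) _ (hσ i _ (ha i)) (by rw [omega_isometry Q hQ g hgΩ, hQa]) with h | h
      · rw [h]; exact haT _
      · rw [h]; exact T.neg_mem (haT _)
    · rw [Matrix.mulVec_zero]; exact T.zero_mem
    · intro x y _ _ hx hy
      rw [Matrix.mulVec_add]; exact T.add_mem hx hy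
    · intro c x _ hx
      rw [Matrix.mulVec_smul]; exact T.smul_mem c hx
  · intro w hw
    have key : ∀ i j, ∀ x ∈ T, rf Q (a i - a j) x ∈ T := by
      intro i j x hx
      rw [rf_def]
      exact T.sub_mem hx (T.smul_mem _ (T.sub_mem (haT _) (haT _)))
    rw [hg1a]
    exact key _ _ _ (key _ _ _ hw)
  · rw [hg1a]
    simp only [rf_def, hQd _ _ h01, hQd _ _ h02, pl_add_left Q hQ, pl_sub_left Q hQ,
      pl_add_right Q hQ, pl_sub_right Q hQ, pl_smul_left Q hQ, pl_smul_right Q hQ, haa, hab', hba',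
      hbb]
    simp [h01, h02, h12, h01.symm, h02.symm, h12.symm, h2ne]
  · rw [hg1a]
    simp only [rf_def, hQd _ _ h01, hQd _ _ h02, pl_add_left Q hQ, pl_sub_left Q hQ,
      pl_add_right Q hQ, pl_sub_right Q hQ, pl_smul_left Q hQ, pl_smul_right Q hQ, haa, hab', hba',
      hbb]
    simp [h2ne]
  · rw [e4]
    intro hmem
    have horth : ∀ x ∈ T, polar Q x (b i2) = 0 := by
      intro x hx
      refine Submodule.span_induction (p := fun x _ => polar Q x (b i2) = 0) ?_ ?_ ?_ ?_ hx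
      · rintro _ ⟨i, rfl⟩
        exact hab' _ _
      · exact pl_zero_left Q hQ _
      · intro x y _ _ hx hy
        rw [pl_add_left Q hQ, hx, hy, add_zero]
      · intro c x _ hx
        rw [pl_smul_left Q hQ, hx, mul_zero]
    have := horth _ hmem
    simp only [pl_add_left Q hQ, pl_sub_left Q hQ, pl_smul_left Q hQ, hab', hbb] at this
    simp at this
    exact h2ne this

/-- Type `O_2^+(2)`. -/
theorem two_case [Finite F] (Q : (ι → F) → F) (hQ : IsNondegenerateQuadraticForm Q)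
    (h2 : (2 : F) = 0) {t k : ℕ}
    (D : Fin t → Submodule F (ι → F)) (hD : IsOrthogonalMDecomposition Q k D) (ht : 5 ≤ t)
    (e f : Fin t → (ι → F)) (he : ∀ i, e i ∈ D i) (hf : ∀ i, f i ∈ D i)
    (hQe : ∀ i, Q (e i) = 0) (hQf : ∀ i, Q (f i) = 0) (hef : ∀ i, polar Q (e i) (f i) = 1)
    (hchar : ∀ i, ∀ x ∈ D i, Q x = 1 → x = e i + f i) :
    ∃ K : Subgroup (GL ι F), decompositionStabilizer D ⊓ omegaGL Q < K ∧ K < omegaGL Q := by
  have hn1 : (-1 : F) = 1 := by linear_combination - h2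
  have hee : ∀ i j, polar Q (e i) (e j) = 0 := by
    intro i j
    by_cases hij : i = j
    · subst hij
      simp [pl_self Q hQ, hQe]
    · simp [hD.decomp.orthogonal i j hij _ (he i) _ (he j)]
  have hff : ∀ i j, polar Q (f i) (f j) = 0 := by
    intro i j
    by_cases hij : i = j
    · subst hij
      simp [pl_self Q hQ, hQf]
    · simp [hD.decomp.orthogonal i j hij _ (hf i) _ (hf j)]
  have hef' : ∀ i j, polar Q (e i) (f j) = if i = j then 1 else 0 := by
    intro i j
    by_cases hij : i = j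
    · subst hij
      simp [hef i]
    · simp [hij, hD.decomp.orthogonal i j hij _ (he i) _ (hf j)]
  have hfe' : ∀ i j, polar Q (f i) (e j) = if i = j then 1 else 0 := by
    intro i j
    rw [polar_comm, hef']
    simp [eq_comm]
  set w : ι → F := ∑ i, (e i + f i) with hw
  have hsumr : ∀ (x : ι → F) (s : Fin t → (ι → F)), polar Q x (∑ i, s i) = ∑ i, polar Q x (s i) := by
    intro x s
    exact map_sum (polarBilin (Cfsg.Agent.H889.bundleQ Q hQ) x) s Finset.univ
  have hew : ∀ i, polar Q (e i) w = 1 := by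
    intro i
    rw [hw, hsumr]
    simp only [pl_add_right Q hQ, hee, hef', zero_add]
    simp
  have hfw : ∀ i, polar Q (f i) w = 1 := by
    intro i
    rw [hw, hsumr]
    simp only [pl_add_right Q hQ, hff, hfe', add_zero]
    simp
  obtain ⟨i0, i1, i2, i3, i4, h01, h02, h03, h04, h12, h13, h14, h23, h24, h34⟩ :=
    exists_five ht
  have hQw : ∀ i, Q (e i + f i) = 1 := by
    intro i
    rw [q_add Q hQ, hQe, hQf, hef]; ring
  -- u = e0 + f0, v = e0 + e1 + (e2 + f2)
  have hQv1 : Q (e i0 + e i1 + (e i2 + f i2)) = 1 := by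
    rw [q_add Q hQ, q_add Q hQ, hQw, hQe, hQe]
    simp only [pl_add_left Q hQ, pl_add_right Q hQ, hee, hef']
    simp [h02, h12]
  have hQv2 : Q (e i0 + (e i1 + f i1)) = 1 := by
    rw [q_add Q hQ, hQw, hQe]
    simp only [pl_add_left Q hQ, pl_add_right Q hQ, hee, hef']
    simp [h01]
  obtain ⟨g1, hg1, hg1a⟩ := exists_refl_comm Q hQ (e i0 + f i0) (e i0 + e i1 + (e i2 + f i2))
    (by rw [hQw]; exact one_ne_zero) (by rw [hQv1]; exact one_ne_zero)
  obtain ⟨g2, hg2, hg2a⟩ := exists_refl_comm Q hQ (e i0 + f i0) (e i0 + (e i1 + f i1))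
    (by rw [hQw]; exact one_ne_zero) (by rw [hQv2]; exact one_ne_zero)
  have e1 : rf Q (e i0 + e i1 + (e i2 + f i2)) (e i0 + f i0) =
      (e i0 + f i0) - (e i0 + e i1 + (e i2 + f i2)) := by
    rw [rf_def, hQv1]
    simp only [pl_add_left Q hQ, pl_add_right Q hQ, hee, hef', hfe', hff]
    simp [h01.symm, h02.symm]
  have e2 : rf Q (e i0 + (e i1 + f i1)) (e i0 + f i0) =
      (e i0 + f i0) - (e i0 + (e i1 + f i1)) := by
    rw [rf_def, hQv2]
    simp only [pl_add_left Q hQ, pl_add_right Q hQ, hee, hef', hfe', hff]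
    simp [h01.symm]
  have hQu1 : Q ((e i0 + f i0) - (e i0 + e i1 + (e i2 + f i2))) = 1 := by
    rw [← e1, rf_isometry Q hQ _ (by rw [hQv1]; exact one_ne_zero), hQw]
  have hQu2 : Q ((e i0 + f i0) - (e i0 + (e i1 + f i1))) = 1 := by
    rw [← e2, rf_isometry Q hQ _ (by rw [hQv2]; exact one_ne_zero), hQw]
  rw [e1] at hg1a
  rw [e2] at hg2a
  refine between_of_stabilizing Q D hD {w} ?_ g1 hg1 ?_ (i := i2) (j := i0) (j' := i1)
    (e i2) (f i0) (f i1) h01 (he _) (hf _) (hf _) ?_ ?_ g2 hg2 w rfl ?_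
  · intro g hg hgΩ x hx
    obtain ⟨σ, hσ⟩ := mem_decompositionStabilizer_apply hg
    rw [Set.mem_singleton_iff] at hx ⊢
    subst hx
    have hstep : ∀ i, (g : Matrix ι ι F) *ᵥ (e i + f i) = e (σ i) + f (σ i) := by
      intro i
      exact hchar (σ i) _ (hσ i _ ((D i).add_mem (he i) (hf i)))
        (by rw [omega_isometry Q hQ g hgΩ, hQw])
    have hsum : (g : Matrix ι ι F) *ᵥ w = ∑ i, (g : Matrix ι ι F) *ᵥ (e i + f i) := by
      rw [hw]
      exact map_sum (Matrix.mulVecLin (g : Matrix ι ι F)) _ _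
    rw [hsum, hw, Finset.sum_congr rfl (fun i _ => hstep i)]
    exact Equiv.sum_comp σ (fun i => e i + f i)
  · intro x hx
    rw [Set.mem_singleton_iff] at hx ⊢
    subst hx
    rw [hg1a]
    have p1 : polar Q ((e i0 + f i0) - (e i0 + e i1 + (e i2 + f i2))) w = 0 := by
      simp only [pl_add_left Q hQ, pl_sub_left Q hQ, hew, hfw]
      linear_combination - h2
    have p2 : polar Q (e i0 + f i0) w = 0 := by
      simp only [pl_add_left Q hQ, hew, hfw]
      linear_combination h2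
    rw [rf_def Q ((e i0 + f i0) - (e i0 + e i1 + (e i2 + f i2))), p1, mul_zero, zero_smul,
      sub_zero, rf_def, p2, mul_zero, zero_smul, sub_zero]
  · rw [hg1a]
    simp only [rf_def, hQw, hQu1, pl_add_left Q hQ, pl_sub_left Q hQ, pl_add_right Q hQ,
      pl_sub_right Q hQ, pl_smul_left Q hQ, pl_smul_right Q hQ, hee, hef', hfe', hff]
    simp only [h01, h02, h12, h01.symm, h02.symm, h12.symm, if_true, if_false]
    intro h
    ring_nf at h
    norm_num at h
  · rw [hg1a]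
    simp only [rf_def, hQw, hQu1, pl_add_left Q hQ, pl_sub_left Q hQ, pl_add_right Q hQ,
      pl_sub_right Q hQ, pl_smul_left Q hQ, pl_smul_right Q hQ, hee, hef', hfe', hff]
    simp only [h01, h02, h12, h01.symm, h02.symm, h12.symm, if_true, if_false]
    intro h
    ring_nf at h
    norm_num at h
  · intro hmem
    rw [Set.mem_singleton_iff] at hmem
    have := congrArg (fun x => polar Q x (f i1)) hmem
    rw [hg2a] at this
    simp only [rf_def, hQw, hQu2, pl_add_left Q hQ, pl_sub_left Q hQ, pl_add_right Q hQ,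
      pl_sub_right Q hQ, pl_smul_left Q hQ, pl_smul_right Q hQ, hee, hef', hfe', hff, hew, hfw] at this
    simp only [h01, h02, h12, h01.symm, h02.symm, h12.symm, if_true, if_false] at this
    ring_nf at this
    norm_num at this

end Cfsg.Agent.H886
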