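import Cfsg.Agent.H886.Decomp

/-!
Tools for stabilisers of orthogonal decompositions: corrections inside a member representing every scalar,
swaps of two isometric members, the product of the reflections in `x` and `x - s` (`s` singular, `s ⊥ x`).
-/

set_option autoImplicit false

namespace Cfsg.Agent.H886.DecTools

open QuadraticMap Cfsg.Agent.LieClassical.OrthCore Cfsg.Agent.LieClassical.OrthTrans
  Cfsg.Agent.LieClassical.OrthFinite Cfsg.Agent.LieClassical.OrthSimple Cfsg.Agent.H883.Bridge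
  Cfsg.Agent.H883.Root Cfsg.Agent.H883.Sub Cfsg.Agent.H886.Decomp

variable {F V : Type*} [Field F] [AddCommGroup V] [Module F V] {Q : QuadraticForm F V} {t : ℕ}
  {D : Fin t → Submodule F V} {p : Fin t → V →ₗ[F] V} {M : Subgroup (V ≃ₗ[F] V)}

/-- The product of the reflections in `x` and `x - s` is a Siegel transformation at `s`. -/
theorem refl_mul_refl_sub {x s : V} (hx : Q x ≠ 0) (hs : Q s = 0) (hsx : polar Q s x = 0)
    (hxs : Q (x - s) ≠ 0) (hp : polar Q s ((-(Q x)⁻¹) • x) = 0) :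
    refl Q x hx * refl Q (x - s) hxs = siegel Q s ((-(Q x)⁻¹) • x) hs hp := by
  have hQ : Q (x - s) = Q x := by
    rw [sub_eq_add_neg, Q_add, QuadraticMap.map_neg, polar_neg_right, polar_comm, hs, hsx]
    ring
  have hxs' : polar Q x s = 0 := by rw [polar_comm]; exact hsx
  ext v
  show refl Q x hx (refl Q (x - s) hxs v) = _
  rw [siegel_apply, refl_apply, refl_apply, hQ, QuadraticMap.map_smul, polar_smul_left]
  simp only [polar_sub_right, polar_sub_left, polar_smul_right, polar_self', hxs', smul_eq_mul]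
  match_scalars
  · ring
  · field_simp
    ring
  · field_simp

/-- Every isometry is in `E Q` up to a product of reflections in vectors of a given subspace representing
every nonzero scalar. -/
theorem exists_correction [FiniteDimensional F V] (hG : Good Q) {W : Submodule F V}
    (hW : ∀ v : F, v ≠ 0 → ∃ y ∈ W, Q y = v) {g : V ≃ₗ[F] V} (hg : g ∈ O Q) :
    ∃ w ∈ Subgroup.closure {r : V ≃ₗ[F] V | ∃ c ∈ W, ∃ hc : Q c ≠ 0, r = refl Q c hc},
      g * w ∈ E Q := by
  set R := Subgroup.closure {r : V ≃ₗ[F] V | ∃ c ∈ W, ∃ hc : Q c ≠ 0, r = refl Q c hc} with hR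
  have hRO : R ≤ O Q := by
    rw [hR, Subgroup.closure_le]
    rintro _ ⟨c, _, hc, rfl⟩
    exact refl_mem_O hc
  rw [O_eq_closure hG.nondeg] at hg
  induction hg using Subgroup.closure_induction with
  | mem x hx =>
    rcases hx with ⟨v, hv, rfl⟩ | ⟨u, w, hu, hw, rfl⟩
    · obtain ⟨c, hc, hQc⟩ := hW (Q v) hv
      have hc0 : Q c ≠ 0 := by rw [hQc]; exact hv
      exact ⟨refl Q c hc0, Subgroup.subset_closure ⟨c, hc, hc0, rfl⟩,
        hG.refl_mul_refl_mem hc0 hv hQc⟩
    · exact ⟨1, R.one_mem, by rw [mul_one]; exact siegel_mem_E hu hw⟩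
  | one => exact ⟨1, R.one_mem, by rw [mul_one]; exact (E Q).one_mem⟩
  | mul x y hx hy h1 h2 =>
    obtain ⟨w1, hw1, h1⟩ := h1
    obtain ⟨w2, hw2, h2⟩ := h2
    refine ⟨w2 * w1, R.mul_mem hw2 hw1, ?_⟩
    have hxO : x ∈ O Q := by rw [O_eq_closure hG.nondeg]; exact hx
    have e : x * y * (w2 * w1) = (x * (y * w2) * x⁻¹) * (x * w1) := by group
    rw [e]
    exact (E Q).mul_mem (conj_mem_E hxO h2) h1
  | inv x hx h1 =>
    obtain ⟨w, hw, h1⟩ := h1
    refine ⟨w⁻¹, R.inv_mem hw, ?_⟩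
    have e : x⁻¹ * w⁻¹ = w * (x * w)⁻¹ * w⁻¹ := by group
    rw [e]
    exact conj_mem_E (hRO hw) ((E Q).inv_mem h1)

/-- **Correction**: an isometry permuting the members agrees, on the vectors without component in the
member `D m`, with an element of `E Q` permuting the members. -/
theorem exists_mem [FiniteDimensional F V] (h : Dec Q D p) (hG : Good Q) (m : Fin t)
    (hm : ∀ v : F, v ≠ 0 → ∃ y ∈ D m, Q y = v) {g : V ≃ₗ[F] V} (hg : g ∈ O Q)
    (hgD : g ∈ stabFamily D) :
    ∃ g' ∈ stabFamily D ⊓ E Q, ∀ z, p m z = 0 → g' z = g z := by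
  obtain ⟨w, hw, hgw⟩ := exists_correction hG hm hg
  have h1 : w ∈ stabFamily D ∧ ∀ z, p m z = 0 → w z = z := by
    clear hgw
    induction hw using Subgroup.closure_induction with
    | mem x hx =>
      obtain ⟨c, hc, hc0, rfl⟩ := hx
      refine ⟨h.refl_mem_stabFamily hc hc0, fun z hz => ?_⟩
      rw [refl_apply, h.polar_right m z hc, hz, polar_zero_right, mul_zero, zero_smul, sub_zero]
    | one => exact ⟨(stabFamily D).one_mem, fun z _ => rfl⟩
    | mul x y _ _ hx hy =>
      refine ⟨(stabFamily D).mul_mem hx.1 hy.1, fun z hz => ?_⟩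
      show x (y z) = z
      rw [hy.2 z hz, hx.2 z hz]
    | inv x _ hx =>
      refine ⟨(stabFamily D).inv_mem hx.1, fun z hz => ?_⟩
      show x.symm z = z
      rw [LinearEquiv.symm_apply_eq, hx.2 z hz]
  refine ⟨g * w, ⟨(stabFamily D).mul_mem hgD h1.1, hgw⟩, fun z hz => ?_⟩
  show g (w z) = g z
  rw [h1.2 z hz]

/-- **Swaps**: an isometry exchanging two isometric members and fixing everything orthogonal to them. -/
theorem exists_swap (h : Dec Q D p) {j l : Fin t} (hjl : j ≠ l) (e : D j ≃ₗ[F] D l)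
    (he : ∀ z : D j, Q (e z : V) = Q (z : V)) :
    ∃ τ : V ≃ₗ[F] V, τ ∈ O Q ∧ τ ∈ stabFamily D ∧ (∀ z, p j z = 0 → p l z = 0 → τ z = z) ∧
      (∀ z (hz : z ∈ D j), τ z = e ⟨z, hz⟩) ∧ (∀ z (hz : z ∈ D l), τ z = e.symm ⟨z, hz⟩) := by
  let pj : V →ₗ[F] D j := (p j).codRestrict (D j) (h.mem j)
  let pl : V →ₗ[F] D l := (p l).codRestrict (D l) (h.mem l)
  let f : V →ₗ[F] V := (D l).subtype ∘ₗ (e : D j →ₗ[F] D l) ∘ₗ pj
  let f' : V →ₗ[F] V := (D j).subtype ∘ₗ (e.symm : D l →ₗ[F] D j) ∘ₗ pl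
  let T : V →ₗ[F] V := LinearMap.id - p j - p l + f + f'
  have hT : ∀ z, T z = z - p j z - p l z + f z + f' z := fun z => rfl
  have hf : ∀ z, f z = (e (pj z) : V) := fun z => rfl
  have hf' : ∀ z, f' z = (e.symm (pl z) : V) := fun z => rfl
  have hpj : ∀ z (hz : z ∈ D j), pj z = ⟨z, hz⟩ := fun z hz => Subtype.ext (h.self j z hz)
  have hpl : ∀ z (hz : z ∈ D l), pl z = ⟨z, hz⟩ := fun z hz => Subtype.ext (h.self l z hz)
  have hpj0 : ∀ z, p j z = 0 → pj z = 0 := fun z hz => Subtype.ext hz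
  have hpl0 : ∀ z, p l z = 0 → pl z = 0 := fun z hz => Subtype.ext hz
  have T0 : ∀ z, p j z = 0 → p l z = 0 → T z = z := by
    intro z h1 h2
    rw [hT, hf, hf', hpj0 z h1, hpl0 z h2, h1, h2]
    simp
  have Tj : ∀ z (hz : z ∈ D j), T z = e ⟨z, hz⟩ := by
    intro z hz
    have h2 : p l z = 0 := h.other l j hjl.symm z hz
    rw [hT, hf, hf', hpj z hz, hpl0 z h2, h2, h.self j z hz]
    simp
  have Tl : ∀ z (hz : z ∈ D l), T z = e.symm ⟨z, hz⟩ := by
    intro z hz
    have h2 : p j z = 0 := h.other j l hjl z hz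
    rw [hT, hf, hf', hpl z hz, hpj0 z h2, h2, h.self l z hz]
    simp
  have hsplit : ∀ z, z = (z - p j z - p l z) + p j z + p l z := fun z => by abel
  have hz0j : ∀ z, p j (z - p j z - p l z) = 0 := by
    intro z
    rw [map_sub, map_sub, h.self j _ (h.mem j z), h.other j l hjl _ (h.mem l z), sub_self, sub_zero]
  have hz0l : ∀ z, p l (z - p j z - p l z) = 0 := by
    intro z
    rw [map_sub, map_sub, h.self l _ (h.mem l z), h.other l j hjl.symm _ (h.mem j z), sub_zero,
      sub_self]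
  have hTT : ∀ z, T (T z) = z := by
    intro z
    have e1 : T z = (z - p j z - p l z) + (e ⟨p j z, h.mem j z⟩ : V) +
        (e.symm ⟨p l z, h.mem l z⟩ : V) := by
      conv_lhs => rw [hsplit z]
      rw [map_add, map_add, T0 _ (hz0j z) (hz0l z), Tj _ (h.mem j z), Tl _ (h.mem l z)]
    rw [e1, map_add, map_add, T0 _ (hz0j z) (hz0l z), Tl _ (Submodule.coe_mem _),
      Tj _ (Submodule.coe_mem _)]
    simp only [Subtype.coe_eta, LinearEquiv.symm_apply_apply, LinearEquiv.apply_symm_apply]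
    abel
  let τ : V ≃ₗ[F] V := LinearEquiv.ofLinearMap T T (by ext z; exact hTT z) (by ext z; exact hTT z)
  have hτ : ∀ z, τ z = T z := fun z => rfl
  have hQT : ∀ z, Q (T z) = Q z := by
    intro z
    have e1 : T z = (z - p j z - p l z) + (e ⟨p j z, h.mem j z⟩ : V) +
        (e.symm ⟨p l z, h.mem l z⟩ : V) := by
      conv_lhs => rw [hsplit z]
      rw [map_add, map_add, T0 _ (hz0j z) (hz0l z), Tj _ (h.mem j z), Tl _ (h.mem l z)]
    have he' : Q (e.symm ⟨p l z, h.mem l z⟩ : V) = Q (p l z) := by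
      have := he (e.symm ⟨p l z, h.mem l z⟩)
      rw [LinearEquiv.apply_symm_apply] at this
      exact this.symm
    have hp1 : ∀ y ∈ D j, polar Q (z - p j z - p l z) y = 0 := by
      intro y hy
      rw [h.polar_left j _ hy, hz0j, polar_zero_left]
    have hp2 : ∀ y ∈ D l, polar Q (z - p j z - p l z) y = 0 := by
      intro y hy
      rw [h.polar_left l _ hy, hz0l, polar_zero_left]
    conv_rhs => rw [hsplit z]
    rw [e1, Q_add, Q_add, Q_add, Q_add, he, he', polar_add_left, polar_add_left,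
      hp2 _ (Submodule.coe_mem _), hp1 _ (Submodule.coe_mem _), hp1 _ (h.mem j z), hp2 _ (h.mem l z),
      h.orth l j hjl.symm _ (Submodule.coe_mem _) _ (Submodule.coe_mem _),
      h.orth j l hjl _ (h.mem j z) _ (h.mem l z)]
  refine ⟨τ, hQT, ?_, T0, Tj, Tl⟩
  have hmap : ∀ i, ∀ x ∈ D i, T x ∈ D (Equiv.swap j l i) := by
    intro i x hx
    by_cases hij : i = j
    · subst hij
      rw [Equiv.swap_apply_left, Tj x hx]
      exact Submodule.coe_mem _
    by_cases hil : i = l
    · subst hil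
      rw [Equiv.swap_apply_right, Tl x hx]
      exact Submodule.coe_mem _
    rw [Equiv.swap_apply_of_ne_of_ne hij hil, T0 x (h.other j i (Ne.symm hij) x hx)
      (h.other l i (Ne.symm hil) x hx)]
    exact hx
  refine ⟨Equiv.swap j l, fun i => le_antisymm ?_ ?_⟩
  · rintro _ ⟨x, hx, rfl⟩
    exact hmap i x hx
  · intro x hx
    refine ⟨T x, ?_, hTT x⟩
    have := hmap _ x hx
    rwa [Equiv.swap_apply_self] at this

end Cfsg.Agent.H886.DecTools
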