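import Mathlib
import Cfsg.Prelude.Def_GeometricClasses
import Cfsg.Agent.H886.CasesB

/-!
Bases of the members of an orthogonal decomposition over small fields.
-/

set_option autoImplicit false
set_option linter.unusedSectionVars false
set_option linter.unusedSimpArgs false

namespace Cfsg.Agent.H886

open Matrix Cfsg.Geo QuadraticMap
open scoped MatrixGroups

variable {ι : Type} [Fintype ι] [DecidableEq ι] {F : Type*} [Field F]

/-- A family spanning a member with prescribed values of the form transfers to all members. -/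
theorem transfer (Q : (ι → F) → F) {t k : ℕ}
    {D : Fin t → Submodule F (ι → F)} (hD : IsOrthogonalMDecomposition Q k D) (i0 : Fin t)
    {m : ℕ} (w : Fin m → (ι → F)) (hw : ∀ a, w a ∈ D i0)
    (hspan : ∀ x ∈ D i0, ∃ c : Fin m → F, x = ∑ a, c a • w a) :
    ∃ v : Fin t → Fin m → (ι → F), (∀ i a, v i a ∈ D i) ∧ (∀ i a, Q (v i a) = Q (w a)) ∧
      (∀ i a b, polar Q (v i a) (v i b) = polar Q (w a) (w b)) ∧
      (∀ i, ∀ x ∈ D i, ∃ c : Fin m → F, x = ∑ a, c a • v i a) := by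
  choose e he using fun i => hD.isometric i0 i
  refine ⟨fun i a => ((e i ⟨w a, hw a⟩ : D i) : ι → F), fun i a => (e i ⟨w a, hw a⟩).2,
    fun i a => he i ⟨w a, hw a⟩, fun i a b => ?_, fun i x hx => ?_⟩
  · have h1 := he i (⟨w a, hw a⟩ + ⟨w b, hw b⟩)
    rw [map_add] at h1
    simp only [polar]
    have h2 := he i ⟨w a, hw a⟩
    have h3 := he i ⟨w b, hw b⟩
    rw [h2, h3]
    have h4 : ((e i ⟨w a, hw a⟩ + e i ⟨w b, hw b⟩ : D i) : ι → F) =
      ((e i ⟨w a, hw a⟩ : D i) : ι → F) + ((e i ⟨w b, hw b⟩ : D i) : ι → F) := rfl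
    rw [← h4, h1]
    rfl
  · obtain ⟨c, hc⟩ := hspan ((e i).symm ⟨x, hx⟩ : D i0) ((e i).symm ⟨x, hx⟩).2
    refine ⟨c, ?_⟩
    have h1 : (e i).symm ⟨x, hx⟩ = ∑ a, c a • (⟨w a, hw a⟩ : D i0) := by
      apply Subtype.ext
      rw [hc]
      simp
    have h2 : (⟨x, hx⟩ : D i) = e i (∑ a, c a • (⟨w a, hw a⟩ : D i0)) := by
      rw [← h1, LinearEquiv.apply_symm_apply]
    rw [map_sum] at h2
    simp only [map_smul] at h2
    have h3 : x = ((∑ a, c a • e i ⟨w a, hw a⟩ : D i) : ι → F) := congrArg Subtype.val h2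
    rw [h3, Submodule.coe_sum]
    rfl

theorem span_of_dual (Q : (ι → F) → F) (hQ : IsNondegenerateQuadraticForm Q)
    (W : Submodule F (ι → F)) {m : ℕ} (hW : Module.finrank F W = m) (w w' : Fin m → (ι → F))
    (hw : ∀ a, w a ∈ W) (hdual : ∀ a b, polar Q (w a) (w' b) = if a = b then 1 else 0) :
    ∀ x ∈ W, ∃ c : Fin m → F, x = ∑ a, c a • w a := by
  have hli : LinearIndependent F w := by
    rw [Fintype.linearIndependent_iff]
    intro g hg a
    have hB : ∀ y : ι → F, polar Q (∑ b, g b • w b) y = ∑ b, g b * polar Q (w b) y := by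
      intro y
      have h0 : (polarBilin (Cfsg.Agent.H889.bundleQ Q hQ)) (∑ b, g b • w b) y =
          ∑ b, g b * (polarBilin (Cfsg.Agent.H889.bundleQ Q hQ)) (w b) y := by
        rw [map_sum, LinearMap.sum_apply]
        refine Finset.sum_congr rfl fun b _ => ?_
        rw [map_smul, LinearMap.smul_apply, smul_eq_mul]
      exact h0
    have h1 := hB (w' a)
    rw [hg, pl_zero_left Q hQ] at h1
    simp only [hdual] at h1
    simpa using h1.symm
  have hle : Submodule.span F (Set.range w) ≤ W := by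
    rw [Submodule.span_le]
    rintro _ ⟨a, rfl⟩
    exact hw a
  have heq : Submodule.span F (Set.range w) = W := by
    apply Submodule.eq_of_le_of_finrank_eq hle
    rw [finrank_span_eq_card hli, hW, Fintype.card_fin]
  intro x hx
  rw [← heq] at hx
  obtain ⟨c, hc⟩ := (Submodule.mem_span_range_iff_exists_fun F).1 hx
  exact ⟨c, hc.symm⟩

/-- An orthogonal basis of a non-degenerate subspace, odd characteristic. -/
theorem exists_orth_basis (Q : (ι → F) → F) (hQ : IsNondegenerateQuadraticForm Q)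
    (h2 : (2 : F) ≠ 0) (W : Submodule F (ι → F)) (hW : IsNondegenerateOn (polar Q) W) {m : ℕ}
    (hm : Module.finrank F W = m) :
    ∃ w : Fin m → (ι → F), (∀ a, w a ∈ W) ∧ (∀ a, Q (w a) ≠ 0) ∧
      (∀ a b, a ≠ b → polar Q (w a) (w b) = 0) ∧
      (∀ x ∈ W, ∃ c : Fin m → F, x = ∑ a, c a • w a) := by
  subst hm
  have : Invertible (2 : F) := invertibleOfNonzero h2
  let Bf : LinearMap.BilinForm F W :=
    (polarBilin (Cfsg.Agent.H889.bundleQ Q hQ)).compl₁₂ W.subtype W.subtype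
  have hBf : ∀ x y : W, Bf x y = polar Q (x : ι → F) (y : ι → F) := fun x y => rfl
  have hsymm : LinearMap.IsSymm Bf := ⟨fun x y => by
    change polar Q (x : ι → F) (y : ι → F) = polar Q (y : ι → F) (x : ι → F)
    exact polar_comm _ _ _⟩
  obtain ⟨v, hv⟩ := LinearMap.BilinForm.exists_orthogonal_basis hsymm
  refine ⟨fun a => (v a : ι → F), fun a => (v a).2, fun a h0 => ?_, fun a b hab => ?_,
    fun x hx => ?_⟩
  · have hne : ((v a : W) : ι → F) ≠ 0 := fun h => v.ne_zero a (Subtype.ext h)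
    obtain ⟨-, y, hy, hy'⟩ := hW _ (v a).2 hne
    apply hy'
    have hy2 : (⟨y, hy⟩ : W) = ∑ b, v.repr ⟨y, hy⟩ b • v b := (v.sum_repr _).symm
    have h3 : Bf (v a) ⟨y, hy⟩ = 0 := by
      rw [hy2, map_sum]
      refine Finset.sum_eq_zero fun b _ => ?_
      rw [map_smul]
      by_cases hab : a = b
      · subst hab
        rw [hBf, pl_self Q hQ, h0, mul_zero, smul_zero]
      · have : Bf (v a) (v b) = 0 := hv hab
        rw [this, smul_zero]
    exact h3
  · exact hv hab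
  · refine ⟨fun a => v.repr ⟨x, hx⟩ a, ?_⟩
    have h3 : ((∑ a, v.repr ⟨x, hx⟩ a • v a : W) : ι → F) = x :=
      congrArg Subtype.val (v.sum_repr ⟨x, hx⟩)
    rw [Submodule.coe_sum] at h3
    exact h3.symm

/-- A hyperbolic partner inside a non-degenerate subspace. -/
theorem exists_partner (Q : (ι → F) → F) (hQ : IsNondegenerateQuadraticForm Q)
    (W : Submodule F (ι → F)) (hW : IsNondegenerateOn (polar Q) W) (e : ι → F) (he : e ∈ W)
    (hne : e ≠ 0) (hQe : Q e = 0) :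
    ∃ f ∈ W, Q f = 0 ∧ polar Q e f = 1 := by
  obtain ⟨-, y, hy, hy'⟩ := hW e he hne
  obtain ⟨y', hy'W, h1⟩ : ∃ y' ∈ W, polar Q e y' = 1 :=
    ⟨(polar Q e y)⁻¹ • y, W.smul_mem _ hy, by rw [pl_smul_right Q hQ, inv_mul_cancel₀ hy']⟩
  refine ⟨y' - Q y' • e, W.sub_mem hy'W (W.smul_mem _ he), ?_, ?_⟩
  · rw [q_sub Q hQ, hQ.smul, hQe, pl_smul_right Q hQ, polar_comm, h1]; ring
  · rw [pl_sub_right Q hQ, pl_smul_right Q hQ, pl_self Q hQ, hQe, h1]; ring

/-- The hyperbolic plane. -/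
theorem plus_two (Q : (ι → F) → F) (hQ : IsNondegenerateQuadraticForm Q)
    (W : Submodule F (ι → F)) (hW : IsNondegenerateOn (polar Q) W)
    (hm : Module.finrank F W = 2) (hplus : IsPlusTypeOn Q W) :
    ∃ e ∈ W, ∃ f ∈ W, Q e = 0 ∧ Q f = 0 ∧ polar Q e f = 1 := by
  obtain ⟨U, hUW, hU, hdim⟩ := hplus
  have h1 : Module.finrank F U = 1 := by omega
  have : U ≠ ⊥ := by
    intro h
    rw [h, finrank_bot] at h1
    omega
  obtain ⟨e, he, hne⟩ := Submodule.exists_mem_ne_zero_of_ne_bot this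
  obtain ⟨f, hf, hQf, hef⟩ := exists_partner Q hQ W hW e (hUW he) hne (hU e he)
  exact ⟨e, hUW he, f, hf, hU e he, hQf, hef⟩

/-- Two hyperbolic pairs in a plus-type 4-space. -/
theorem plus_four (Q : (ι → F) → F) (hQ : IsNondegenerateQuadraticForm Q)
    (W : Submodule F (ι → F)) (hW : IsNondegenerateOn (polar Q) W)
    (hm : Module.finrank F W = 4) (hplus : IsPlusTypeOn Q W) :
    ∃ e ∈ W, ∃ f ∈ W, ∃ e' ∈ W, ∃ f' ∈ W, Q e = 0 ∧ Q f = 0 ∧ Q e' = 0 ∧ Q f' = 0 ∧
      polar Q e f = 1 ∧ polar Q e' f' = 1 ∧ polar Q e e' = 0 ∧ polar Q e f' = 0 ∧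
      polar Q f e' = 0 ∧ polar Q f f' = 0 := by
  obtain ⟨U, hUW, hU, hdim⟩ := hplus
  have h2 : Module.finrank F U = 2 := by omega
  let bU := Module.finBasisOfFinrankEq F U h2
  set e : ι → F := (bU 0 : ι → F) with he
  set e' : ι → F := (bU 1 : ι → F) with he'
  have heU : e ∈ U := (bU 0).2
  have he'U : e' ∈ U := (bU 1).2
  have hQe : Q e = 0 := hU _ heU
  have hQe' : Q e' = 0 := hU _ he'U
  have hee' : polar Q e e' = 0 := by
    simp only [polar]
    rw [hU _ (U.add_mem heU he'U), hQe, hQe']; ring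
  have hne' : e' ≠ 0 := fun h => bU.ne_zero 1 (Subtype.ext h)
  have hindep : ∀ c : F, e - c • e' ≠ 0 := by
    intro c h
    have h3 : (bU 0) = c • (bU 1) := Subtype.ext (sub_eq_zero.1 h)
    have := bU.linearIndependent
    have h4 := congrArg (fun x => bU.repr x 0) h3
    simp at h4
  -- partner of `e` orthogonal to `e'`
  have key : ∃ y ∈ W, polar Q e' y = 0 ∧ polar Q e y ≠ 0 := by
    by_contra hcon
    push Not at hcon
    obtain ⟨y0, hy0, hQy0, he'y0⟩ := exists_partner Q hQ W hW e' (hUW he'U) hne' hQe'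
    have hall : ∀ y ∈ W, polar Q (e - polar Q e y0 • e') y = 0 := by
      intro y hy
      have h5 := hcon (y - polar Q e' y • y0) (W.sub_mem hy (W.smul_mem _ hy0)) (by
        rw [pl_sub_right Q hQ, pl_smul_right Q hQ, he'y0]; ring)
      rw [pl_sub_right Q hQ, pl_smul_right Q hQ] at h5
      rw [pl_sub_left Q hQ, pl_smul_left Q hQ]
      linear_combination h5
    obtain ⟨-, y, hy, hy'⟩ := hW (e - polar Q e y0 • e')
      (W.sub_mem (hUW heU) (W.smul_mem _ (hUW he'U))) (hindep _)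
    exact hy' (hall y hy)
  obtain ⟨y, hy, hy1, hy2⟩ := key
  obtain ⟨y1, a3, a1, a2⟩ : ∃ y1 ∈ W, polar Q e y1 = 1 ∧ polar Q e' y1 = 0 :=
    ⟨(polar Q e y)⁻¹ • y, W.smul_mem _ hy, by rw [pl_smul_right Q hQ, inv_mul_cancel₀ hy2],
      by rw [pl_smul_right Q hQ, hy1, mul_zero]⟩
  obtain ⟨f, hfW, hQf, hef, he'f⟩ : ∃ f ∈ W, Q f = 0 ∧ polar Q e f = 1 ∧ polar Q e' f = 0 := by
    refine ⟨y1 - Q y1 • e, W.sub_mem a3 (W.smul_mem _ (hUW heU)), ?_, ?_, ?_⟩
    · rw [q_sub Q hQ, hQ.smul, hQe, pl_smul_right Q hQ, polar_comm, a1]; ring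
    · rw [pl_sub_right Q hQ, pl_smul_right Q hQ, pl_self Q hQ, hQe, a1]; ring
    · rw [pl_sub_right Q hQ, pl_smul_right Q hQ, polar_comm Q e' e, hee', a2]; ring
  obtain ⟨z, hz, hQz, he'z⟩ := exists_partner Q hQ W hW e' (hUW he'U) hne' hQe'
  -- make `z` orthogonal to `e` and `f`
  obtain ⟨z1, hz1W, b1, b2, b3⟩ : ∃ z1 ∈ W, polar Q e z1 = 0 ∧ polar Q f z1 = 0 ∧
      polar Q e' z1 = 1 := by
    refine ⟨z - polar Q e z • f - polar Q f z • e,
      W.sub_mem (W.sub_mem hz (W.smul_mem _ hfW)) (W.smul_mem _ (hUW heU)), ?_, ?_, ?_⟩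
    · rw [pl_sub_right Q hQ, pl_sub_right Q hQ, pl_smul_right Q hQ, pl_smul_right Q hQ, hef,
        pl_self Q hQ, hQe]; ring
    · rw [pl_sub_right Q hQ, pl_sub_right Q hQ, pl_smul_right Q hQ, pl_smul_right Q hQ,
        pl_self Q hQ, hQf, polar_comm Q f e, hef]; ring
    · rw [pl_sub_right Q hQ, pl_sub_right Q hQ, pl_smul_right Q hQ, pl_smul_right Q hQ,
        he'z, he'f, polar_comm Q e' e, hee']; ring
  refine ⟨e, hUW heU, f, hfW, e', hUW he'U, z1 - Q z1 • e', W.sub_mem hz1W (W.smul_mem _ (hUW he'U)),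
    hQe, hQf, hQe', ?_, hef, ?_, hee', ?_, ?_, ?_⟩
  · rw [q_sub Q hQ, hQ.smul, hQe', pl_smul_right Q hQ, polar_comm, b3]; ring
  · rw [pl_sub_right Q hQ, pl_smul_right Q hQ, pl_self Q hQ, hQe', b3]; ring
  · rw [pl_sub_right Q hQ, pl_smul_right Q hQ, hee', b1]; ring
  · rw [polar_comm]; exact he'f
  · rw [pl_sub_right Q hQ, pl_smul_right Q hQ, polar_comm Q f e', he'f, b2]; ring

end Cfsg.Agent.H886
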