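import Cfsg.Agent.H886.PlaneNonRigid
import Cfsg.Agent.H886.NotMax

/-!
**The stabiliser in `Ω` of an orthogonal decomposition into anisotropic planes is maximal**
(`|F| ≠ 3`, at least five members).
-/

set_option autoImplicit false

namespace Cfsg.Agent.H886.PlaneMax

open QuadraticMap Cfsg.Agent.LieClassical.OrthCore Cfsg.Agent.LieClassical.OrthTrans
  Cfsg.Agent.LieClassical.OrthFinite Cfsg.Agent.LieClassical.OrthSimple Cfsg.Agent.H883.Bridge
  Cfsg.Agent.H883.Root Cfsg.Agent.H883.Sub Cfsg.Agent.H886.Decomp Cfsg.Agent.H886.Rigid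
  Cfsg.Agent.H886.Plane Cfsg.Agent.H886.PlaneRigid Cfsg.Agent.H886.DecTools
  Cfsg.Agent.H886.PlaneNonRigid

section Free

variable {F V : Type*} [Field F] [AddCommGroup V] [Module F V] {Q : QuadraticForm F V} {t : ℕ}
  {D : Fin t → Submodule F V} {p : Fin t → V →ₗ[F] V}

/-- `E Q` does not preserve an orthogonal decomposition with at least three members representing all
nonzero scalars. -/
theorem not_E_le [FiniteDimensional F V] (hG : Good Q) (h : Dec Q D p)
    (hrep : ∀ m : Fin t, ∀ v : F, v ≠ 0 → ∃ y ∈ D m, Q y = v) (ht : 3 ≤ t) :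
    ¬ E Q ≤ stabFamily D := by
  intro hE
  let a : Fin t := ⟨0, by omega⟩
  let b : Fin t := ⟨1, by omega⟩
  let c : Fin t := ⟨2, by omega⟩
  have hab : a ≠ b := by simp [a, b, Fin.ext_iff]
  have hac : a ≠ c := by simp [a, c, Fin.ext_iff]
  have hbc : b ≠ c := by simp [b, c, Fin.ext_iff]
  obtain ⟨ua, hua, hQua⟩ := hrep a 1 one_ne_zero
  obtain ⟨ub, hub, hQub⟩ := hrep b (-1) (neg_ne_zero.2 one_ne_zero)
  obtain ⟨w, hw, hQw⟩ := hrep c 1 one_ne_zero
  have hu : Q (ua + ub) = 0 := by
    rw [Q_add, hQua, hQub, h.orth a b hab ua hua ub hub]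
    ring
  have hua0 : ua ≠ 0 := by
    rintro rfl
    rw [QuadraticMap.map_zero] at hQua
    exact zero_ne_one hQua
  have hub0 : ub ≠ 0 := by
    rintro rfl
    rw [QuadraticMap.map_zero] at hQub
    exact (neg_ne_zero.2 one_ne_zero) hQub.symm
  have hw0 : w ≠ 0 := by
    rintro rfl
    rw [QuadraticMap.map_zero] at hQw
    exact zero_ne_one hQw
  obtain ⟨e, he, hue⟩ := (h.nondegOn hG.nondeg a).exists_polar_eq hua hua0 1
  have huw : polar Q (ua + ub) w = 0 := by
    rw [polar_add_left, h.orth a c hac ua hua w hw, h.orth b c hbc ub hub w hw, add_zero]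
  have hue' : polar Q (ua + ub) e = 1 := by
    rw [polar_add_left, hue, h.orth b a hab.symm ub hub e he, add_zero]
  have hwe : polar Q w e = 0 := h.orth c a hac.symm w hw e he
  obtain ⟨σ, hσ⟩ := hE (siegel_mem_E hu huw)
  have h1 : siegel Q (ua + ub) w hu huw e ∈ D (σ a) := by
    rw [← hσ a]
    exact ⟨e, he, rfl⟩
  have h2 : siegel Q (ua + ub) w hu huw e = e + w - (ua + ub) := by
    rw [siegel_apply, hue', hwe, hQw]
    simp
  rw [h2] at h1
  have hpc : p c (e + w - (ua + ub)) = w := by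
    rw [map_sub, map_add, map_add, h.other c a hac.symm e he, h.self c w hw,
      h.other c a hac.symm ua hua, h.other c b hbc.symm ub hub]
    simp
  have hpb : p b (e + w - (ua + ub)) = -ub := by
    rw [map_sub, map_add, map_add, h.other b a hab.symm e he, h.other b c hbc w hw,
      h.other b a hab.symm ua hua, h.self b ub hub]
    simp
  by_cases hc : σ a = c
  · rw [hc] at h1
    have := h.other b c hbc _ h1
    rw [hpb] at this
    exact hub0 (neg_eq_zero.1 this)
  · have := h.other c (σ a) (Ne.symm hc) _ h1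
    rw [hpc] at this
    exact hw0 this

/-- **Maximality, coordinate free.** -/
theorem maximal_free [Finite F] [FiniteDimensional F V] (hq : Nat.card F ≠ 3) (hG : Good Q)
    (horth : ∀ i j, i ≠ j → ∀ x ∈ D i, ∀ y ∈ D j, polar Q x y = 0) (hspan : iSup D = ⊤)
    (hrank : ∀ i, Module.finrank F (D i) = 2) (hanis : ∀ i, ∀ x ∈ D i, Q x = 0 → x = 0)
    (hiso : ∀ i j, ∃ e : D i ≃ₗ[F] D j, ∀ z : D i, Q (e z : V) = Q (z : V)) (ht : 5 ≤ t) :
    Cfsg.Geo.IsMaximalIn (E Q) (stabFamily D ⊓ E Q) := by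
  obtain ⟨p, h⟩ := exists_dec hG.nondeg horth hspan
  have hD : ∀ i, AP Q (D i) := fun i => ⟨hrank i, h.nondegOn hG.nondeg i, hanis i⟩
  have hrep : ∀ m : Fin t, ∀ v : F, v ≠ 0 → ∃ y ∈ D m, Q y = v := fun m v hv => by
    obtain ⟨y, hy, -, hQy⟩ := (hD m).exists_value v hv
    exact ⟨y, hy, hQy⟩
  refine ⟨lt_of_le_of_ne inf_le_right fun heq => ?_, fun M hM1 hM2 => ?_⟩
  · apply not_E_le hG h hrep (by omega)
    rw [← heq]
    exact inf_le_left
  · by_cases hR : Rigid Q D M
    · left
      exact le_antisymm (le_inf (le_stabFamily hq hG h hD (by omega) (hM2.trans E_le_O) hM1 hR) hM2)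
        hM1
    · right
      exact le_antisymm hM2 (E_le_of_not_rigid hq hG h hD hiso ht (hM2.trans E_le_O) hM1 hR)

end Free

section Geo

variable {ι : Type} [Fintype ι] [DecidableEq ι] {F : Type*} [Field F]

omit [Fintype ι] [DecidableEq ι] in
/-- A nondegenerate plane not of plus type is anisotropic. -/
theorem aniso_of_not_plus {Q : (ι → F) → F} {W : Submodule F (ι → F)}
    (hs : ∀ (c : F) (v : ι → F), Q (c • v) = c * c * Q v)
    (hW : Module.finrank F W = 2) (hplus : ¬ Cfsg.Geo.IsPlusTypeOn Q W) :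
    ∀ x ∈ W, Q x = 0 → x = 0 := by
  intro x hx hQx
  by_contra hx0
  apply hplus
  refine ⟨Submodule.span F {x}, (Submodule.span_singleton_le_iff_mem x W).2 hx, ?_, ?_⟩
  · intro w hw
    obtain ⟨c, rfl⟩ := Submodule.mem_span_singleton.1 hw
    rw [hs, hQx, mul_zero]
  · rw [finrank_span_singleton hx0, hW]

/-- **Orthogonal decompositions into anisotropic planes: the stabiliser in `Ω` is maximal.**
Any nondegenerate quadratic form over a finite field with `|F| ≠ 3`, dimension at least 10. -/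
theorem decomposition_planes_maximal [Fintype F] (hq : Fintype.card F ≠ 3) {Q : (ι → F) → F}
    (hQ : Cfsg.Geo.IsNondegenerateQuadraticForm Q) (hn : 9 ≤ Fintype.card ι) {t : ℕ}
    {D : Fin t → Submodule F (ι → F)} (hD : Cfsg.Geo.IsOrthogonalMDecomposition Q 2 D)
    (hminus : ∀ i, ¬ Cfsg.Geo.IsPlusTypeOn Q (D i)) :
    Cfsg.Geo.IsMaximalIn (Cfsg.Geo.omegaGL Q)
      (Cfsg.Geo.decompositionStabilizer D ⊓ Cfsg.Geo.omegaGL Q) := by
  have htk := Cfsg.Agent.H886.finrank_mdecomposition hD.decomp.decomp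
  refine decompositionStabilizer_maximal hQ (by omega) D ?_
  rintro Q' rfl hG
  refine maximal_free (by rw [Nat.card_eq_fintype_card]; exact hq) hG
    (fun i j hij x hx y hy => hD.decomp.orthogonal i j hij x hx y hy)
    hD.decomp.decomp.iSup_eq_top hD.decomp.decomp.finrank_eq
    (fun i => aniso_of_not_plus (fun c v => by rw [QuadraticMap.map_smul, smul_eq_mul])
      (hD.decomp.decomp.finrank_eq i) (hminus i))
    (fun i j => hD.isometric i j) (by omega)

end Geo

end Cfsg.Agent.H886.PlaneMax
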