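import Cfsg.Agent.H886.PlaneRigid
import Cfsg.Agent.H886.DecTools

/-!
Non-rigid overgroups of the stabiliser of an orthogonal decomposition into anisotropic planes contain `E Q`
(at least five members, `|F| ≠ 3`).
-/

set_option autoImplicit false
set_option linter.unusedSectionVars false
set_option linter.unusedVariables false

namespace Cfsg.Agent.H886.PlaneNonRigid

open QuadraticMap Cfsg.Agent.LieClassical.OrthCore Cfsg.Agent.LieClassical.OrthTrans
  Cfsg.Agent.LieClassical.OrthFinite Cfsg.Agent.LieClassical.OrthSimple Cfsg.Agent.H883.Bridge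
  Cfsg.Agent.H883.Root Cfsg.Agent.H883.Sub Cfsg.Agent.H886.Decomp Cfsg.Agent.H886.Rigid
  Cfsg.Agent.H886.Plane Cfsg.Agent.H886.PlaneRigid Cfsg.Agent.H886.DecTools

variable {F V : Type*} [Field F] [AddCommGroup V] [Module F V] {Q : QuadraticForm F V} {t : ℕ}
  {D : Fin t → Submodule F V} {p : Fin t → V →ₗ[F] V} {M : Subgroup (V ≃ₗ[F] V)}

/-- `x` is linked by `M` to a nonsingular vector of a member. -/
def Linked (Q : QuadraticForm F V) (D : Fin t → Submodule F V) (M : Subgroup (V ≃ₗ[F] V)) (x : V) :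
    Prop :=
  ∃ hx : Q x ≠ 0, ∃ i, ∃ a ∈ D i, ∃ ha : Q a ≠ 0, refl Q a ha * refl Q x hx ∈ M

theorem linked_move (h : Dec Q D p) (hG : Good Q) (hMO : M ≤ O Q) (hH : stabFamily D ⊓ E Q ≤ M)
    {x : V} (hx : Linked Q D M x) {g : V ≃ₗ[F] V} (hg : g ∈ stabFamily D ⊓ E Q) (hQx : Q x ≠ 0)
    (hgx : Q (g x) ≠ 0) : refl Q x hQx * refl Q (g x) hgx ∈ M := by
  obtain ⟨_, i, a, ha, hQa, hM⟩ := hx
  have hgM := hH hg
  have hgO := hMO hgM
  obtain ⟨σ, hσ⟩ := hg.1
  have hga : g a ∈ D (σ i) := by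
    rw [← hσ i]
    exact ⟨a, ha, rfl⟩
  have hQga : Q (g a) ≠ 0 := by rw [mem_O.1 hgO]; exact hQa
  have h1 : refl Q a hQa * refl Q (g a) hQga ∈ M :=
    hH (h.refl_mul_refl_mem hG ha hga hQa hQga (mem_O.1 hgO a).symm)
  have h2 := M.mul_mem (M.mul_mem hgM hM) (M.inv_mem hgM)
  rw [conj_refl_mul_refl hgO hQa hQx hQga hgx] at h2
  have h3 := M.mul_mem (M.mul_mem (M.inv_mem hM) h1) h2
  have e : (refl Q a hQa * refl Q x hQx)⁻¹ * (refl Q a hQa * refl Q (g a) hQga) *
      (refl Q (g a) hQga * refl Q (g x) hgx) = refl Q x hQx * refl Q (g x) hgx := by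
    have e1 := refl_mul_self (Q := Q) hQga
    rw [mul_inv_rev, refl_inv, refl_inv]
    calc refl Q x hQx * refl Q a hQa * (refl Q a hQa * refl Q (g a) hQga) *
        (refl Q (g a) hQga * refl Q (g x) hgx)
        = refl Q x hQx * (refl Q a hQa * refl Q a hQa) * (refl Q (g a) hQga * refl Q (g a) hQga) *
          refl Q (g x) hgx := by group
      _ = refl Q x hQx * refl Q (g x) hgx := by
          rw [refl_mul_self, refl_mul_self, mul_one, mul_one]
  rwa [e] at h3

theorem linked_refl (h : Dec Q D p) (hG : Good Q) (hMO : M ≤ O Q) (hH : stabFamily D ⊓ E Q ≤ M)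
    {x : V} (hx : Linked Q D M x) {g : V ≃ₗ[F] V} (hg : g ∈ stabFamily D ⊓ E Q)
    (hgx : Q (g x) ≠ 0) : Linked Q D M (refl Q (g x) hgx x) := by
  obtain ⟨hQx, i, a, ha, hQa, hM⟩ := id hx
  have h1 := linked_move h hG hMO hH hx hg hQx hgx
  have hO := refl_mem_O (Q := Q) hgx
  have hQ' : Q (refl Q (g x) hgx x) ≠ 0 := by rw [mem_O.1 hO]; exact hQx
  refine ⟨hQ', i, a, ha, hQa, ?_⟩
  rw [← refl_conj hO hQx hQ', refl_inv]
  have h2 := M.mul_mem (M.mul_mem hM h1) h1
  have e : refl Q a hQa * refl Q x hQx * (refl Q x hQx * refl Q (g x) hgx) *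
      (refl Q x hQx * refl Q (g x) hgx) =
      refl Q a hQa * (refl Q (g x) hgx * refl Q x hQx * refl Q (g x) hgx) := by
    calc refl Q a hQa * refl Q x hQx * (refl Q x hQx * refl Q (g x) hgx) *
        (refl Q x hQx * refl Q (g x) hgx)
        = refl Q a hQa * (refl Q x hQx * refl Q x hQx) * refl Q (g x) hgx *
          refl Q x hQx * refl Q (g x) hgx := by group
      _ = _ := by
          rw [refl_mul_self, mul_one]
          group
  rwa [e] at h2

/-- A Siegel transformation from a linked vector. -/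
theorem has_of_move (h : Dec Q D p) (hG : Good Q) (hMO : M ≤ O Q) (hH : stabFamily D ⊓ E Q ≤ M)
    {x s : V} (hx : Linked Q D M x) {g : V ≃ₗ[F] V} (hg : g ∈ stabFamily D ⊓ E Q)
    (hgx : g x = x - s) (hs : Q s = 0) (hsx : polar Q s x = 0) :
    Has Q M s ((-(Q x)⁻¹) • x) := by
  obtain ⟨hQx, -⟩ := id hx
  have hQ' : Q (g x) ≠ 0 := by rw [mem_O.1 (E_le_O hg.2)]; exact hQx
  have h1 := linked_move h hG hMO hH hx hg hQx hQ'
  have hp : polar Q s ((-(Q x)⁻¹) • x) = 0 := by rw [polar_smul_right, hsx, smul_zero]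
  refine ⟨hs, hp, ?_⟩
  have hQ'' : Q (x - s) ≠ 0 := by rw [← hgx]; exact hQ'
  rw [← refl_mul_refl_sub hQx hs hsx hQ'' hp]
  have e : refl Q (x - s) hQ'' = refl Q (g x) hQ' := by simp only [hgx]
  rw [e]
  exact h1

theorem exists_notMem_finset (S : Finset (Fin t)) (hS : S.card < t) : ∃ i, i ∉ S := by
  by_contra hc
  push Not at hc
  have : S = Finset.univ := Finset.eq_univ_iff_forall.2 hc
  rw [this, Finset.card_univ, Fintype.card_fin] at hS
  omega

/-- Products of two reflections whose norms differ by a square factor. -/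
theorem refl_mul_refl_factor (hG : Good Q) {c d : V} (hc : Q c ≠ 0) (hd : Q d ≠ 0) {e : F}
    (he : e ≠ 0) (hQ : Q d = e * e * Q c) : refl Q c hc * refl Q d hd ∈ E Q := by
  have h1 : Q (e • c) ≠ 0 := by
    rw [QuadraticMap.map_smul, smul_eq_mul]
    exact mul_ne_zero (mul_ne_zero he he) hc
  rw [← refl_smul hc he h1]
  refine hG.refl_mul_refl_mem hd h1 ?_
  rw [QuadraticMap.map_smul, smul_eq_mul, hQ]

section Planes

variable [Finite F] [FiniteDimensional F V]

/-- A linked vector outside the members leads to one with three nonzero components. -/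
theorem exists_three (hq : Nat.card F ≠ 3) (hG : Good Q) (h : Dec Q D p) (hD : ∀ i, AP Q (D i))
    (hiso : ∀ i j, ∃ e : D i ≃ₗ[F] D j, ∀ z : D i, Q (e z : V) = Q (z : V)) (ht : 4 ≤ t)
    (hMO : M ≤ O Q) (hH : stabFamily D ⊓ E Q ≤ M) {x : V} (hx : Linked Q D M x)
    (hxD : ∀ i, x ∉ D i) :
    ∃ x', Linked Q D M x' ∧ ∃ i j l, i ≠ j ∧ i ≠ l ∧ j ≠ l ∧ p i x' ≠ 0 ∧ p j x' ≠ 0 ∧
      p l x' ≠ 0 := by
  obtain ⟨hQx, -⟩ := id hx
  obtain ⟨i, hi⟩ : ∃ i, p i x ≠ 0 := by
    by_contra hc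
    push Not at hc
    rw [h.eq_zero hc, QuadraticMap.map_zero] at hQx
    exact hQx rfl
  obtain ⟨j, hji, hj⟩ := h.exists_ne (hxD i)
  by_cases hl : ∃ l, l ≠ i ∧ l ≠ j ∧ p l x ≠ 0
  · obtain ⟨l, hli, hlj, hl⟩ := hl
    exact ⟨x, hx, i, j, l, hji.symm, hli.symm, hlj.symm, hi, hj, hl⟩
  push Not at hl
  obtain ⟨l, hlS⟩ := exists_notMem_finset ({i, j} : Finset (Fin t))
    (lt_of_le_of_lt Finset.card_le_two (by omega))
  obtain ⟨m, hmS⟩ := exists_notMem_finset ({i, j, l} : Finset (Fin t))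
    (lt_of_le_of_lt Finset.card_le_three (by omega))
  simp only [Finset.mem_insert, Finset.mem_singleton, not_or] at hlS hmS
  obtain ⟨hli, hlj⟩ := hlS
  obtain ⟨hmi, hmj, hml⟩ := hmS
  have hxs : x = p i x + p j x := by
    refine h.ext fun k => ?_
    rw [map_add]
    by_cases hki : k = i
    · subst hki
      rw [h.self k _ (h.mem k x), h.other k j hji.symm _ (h.mem j x), add_zero]
    by_cases hkj : k = j
    · subst hkj
      rw [h.self k _ (h.mem k x), h.other k i hki _ (h.mem i x), zero_add]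
    rw [h.other k i hki _ (h.mem i x), h.other k j hkj _ (h.mem j x), hl k hki hkj, add_zero]
  -- a vector `y` of the same norm as `p i x`
  obtain ⟨a, b, hfr⟩ := (hD i).exists_fr (h.mem i x) hi
  obtain ⟨y, hy, hQy, h1, h2⟩ := (hD i).exists_nonorth hq (h.mem i x) hi (h.mem i x) hi hfr.ha hfr.ha0
  have hc0 : p i x - y ≠ 0 := by
    intro h0
    rw [sub_eq_zero] at h0
    rw [← h0] at h2
    exact h2 hfr.hax
  have hcm : p i x - y ∈ D i := (D i).sub_mem (h.mem i x) hy
  have hQc := (hD i).ne hcm hc0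
  have hr := refl_sub_apply hQy hQc
  obtain ⟨e, he⟩ := hiso j l
  obtain ⟨τ, hτO, hτD, hτ0, hτj, -⟩ := DecTools.exists_swap h (Ne.symm hlj) e he
  have hgO : τ * refl Q (p i x - y) hQc ∈ O Q := (O Q).mul_mem hτO (refl_mem_O hQc)
  have hgD : τ * refl Q (p i x - y) hQc ∈ stabFamily D :=
    (stabFamily D).mul_mem hτD (h.refl_mem_stabFamily hcm hQc)
  obtain ⟨g, hgH, hg⟩ := exists_mem h hG m (fun v hv => by
    obtain ⟨y, hy, -, hQy⟩ := (hD m).exists_value v hv
    exact ⟨y, hy, hQy⟩) hgO hgD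
  have hxm : p m x = 0 := hl m hmi hmj
  set z : V := τ (p j x) with hz
  have hzl : z ∈ D l := by
    rw [hz, hτj _ (h.mem j x)]
    exact Submodule.coe_mem _
  have hz0 : z ≠ 0 := by
    intro h0
    rw [hz] at h0
    exact hj (by rwa [LinearEquiv.map_eq_zero_iff] at h0)
  have hgx : g x = y + z := by
    rw [hg x hxm]
    show τ (refl Q (p i x - y) hQc x) = y + z
    have e1 : refl Q (p i x - y) hQc x = y + p j x := by
      have e2 : refl Q (p i x - y) hQc x = refl Q (p i x - y) hQc (p i x + p j x) :=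
        congrArg _ hxs
      rw [e2, map_add, hr, refl_apply, h.orth i j hji.symm _ hcm _ (h.mem j x), mul_zero, zero_smul,
        sub_zero]
    rw [e1, map_add, hτ0 y (h.other j i hji y hy) (h.other l i hli y hy)]
  have hQgx : Q (g x) ≠ 0 := by rw [mem_O.1 (E_le_O hgH.2)]; exact hQx
  refine ⟨_, linked_refl h hG hMO hH hx hgH hQgx, i, j, l, hji.symm, Ne.symm hli, Ne.symm hlj, ?_,
    ?_, ?_⟩
  all_goals rw [refl_apply, map_sub, map_smul]
  all_goals
    have hpol : polar Q (g x) x = polar Q y (p i x) := by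
      rw [hgx, polar_add_left, h.polar_right i x hy, h.polar_right l x hzl, hl l hli hlj,
        polar_zero_right, add_zero]
    have hκ : (Q (g x))⁻¹ * polar Q (g x) x ≠ 0 := by
      refine mul_ne_zero (inv_ne_zero hQgx) ?_
      rw [hpol, polar_comm]
      exact h1
    generalize (Q (g x))⁻¹ * polar Q (g x) x = κ at hκ ⊢
  · rw [hgx, map_add, h.self i y hy, h.other i l (Ne.symm hli) z hzl, add_zero]
    intro h0
    rw [sub_eq_zero] at h0
    have h3 := hfr.hax
    rw [h0, polar_smul_right, smul_eq_mul] at h3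
    rcases mul_eq_zero.1 h3 with h4 | h4
    · exact hκ h4
    · exact h2 h4
  · rw [hgx, map_add, h.other j i hji y hy, h.other j l (Ne.symm hlj) z hzl, add_zero, smul_zero,
      sub_zero]
    exact hj
  · rw [hl l hli hlj, hgx, map_add, h.other l i hli y hy, h.self l z hzl, zero_add, zero_sub]
    exact neg_ne_zero.2 (smul_ne_zero hκ hz0)

omit [Finite F] [FiniteDimensional F V] in
/-- The effect of the reflection in `c ∈ D i` with `r_c (p i x) = p i x - c`. -/
theorem refl_pair_apply (h : Dec Q D p) {i : Fin t} {c z : V} (hc : c ∈ D i) (hQc : Q c ≠ 0)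
    (hcz : polar Q c (p i z) = Q c) : refl Q c hQc z = z - c := by
  rw [refl_apply, h.polar_right i z hc, hcz, inv_mul_cancel₀ hQc, one_smul]

/-- **A linked vector with three nonzero components gives a Siegel transformation.** -/
theorem exists_siegel (hq : Nat.card F ≠ 3) (hG : Good Q) (h : Dec Q D p) (hD : ∀ i, AP Q (D i))
    (ht : 5 ≤ t)
    (hMO : M ≤ O Q) (hH : stabFamily D ⊓ E Q ≤ M) {x : V} (hx : Linked Q D M x) {i j l : Fin t}
    (hij : i ≠ j) (hil : i ≠ l) (hjl : j ≠ l) (hi : p i x ≠ 0) (hj : p j x ≠ 0) (hl : p l x ≠ 0) :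
    ∃ s w : V, s ≠ 0 ∧ Has Q M s w ∧ ∃ S : Finset (Fin t), S.card ≤ 2 ∧ (∀ k, k ∉ S → p k s = 0) ∧
      ∃ k, k ∉ S ∧ p k w ≠ 0 := by
  classical
  obtain ⟨hQx, -⟩ := id hx
  have hκ : -(Q x)⁻¹ ≠ 0 := neg_ne_zero.2 (inv_ne_zero hQx)
  have hrep : ∀ m : Fin t, ∀ v : F, v ≠ 0 → ∃ y ∈ D m, Q y = v := fun m v hv => by
    obtain ⟨y, hy, -, hQy⟩ := (hD m).exists_value v hv
    exact ⟨y, hy, hQy⟩
  -- pairs
  obtain ⟨c, hc, d, hd, hQc, hQd, hcx, hdx, hcd⟩ :=
    exists_pair_sing (hD i) (hD j) (h.mem i x) hi (h.mem j x) hj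
  have hc0 : c ≠ 0 := by
    rintro rfl
    exact hQc (QuadraticMap.map_zero Q)
  have hpcd : polar Q c d = 0 := h.orth i j hij c hc d hd
  have hcx' : polar Q c x = Q c := by rw [h.polar_right i x hc, hcx]
  have hdx' : polar Q d x = Q d := by rw [h.polar_right j x hd, hdx]
  have hQcd : Q (c + d) = 0 := by rw [Q_add, hpcd, add_zero, hcd]
  have hpix : ∀ k, k ≠ i → k ≠ j → p k (c + d) = 0 := by
    intro k h1 h2
    rw [map_add, h.other k i h1 c hc, h.other k j h2 d hd, add_zero]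
  have hcd0 : c + d ≠ 0 := by
    intro h0
    have := congrArg (p i) h0
    rw [map_add, h.self i c hc, h.other i j hij d hd, add_zero, map_zero] at this
    exact hc0 this
  have hxcd : polar Q (c + d) x = 0 := by rw [polar_add_left, hcx', hdx', hcd]
  have hgx : (refl Q c hQc * refl Q d hQd) x = x - (c + d) := by
    show refl Q c hQc (refl Q d hQd x) = _
    rw [refl_pair_apply h hd hQd hdx, refl_pair_apply h hc hQc (by
      rw [map_sub, h.other i j hij d hd, sub_zero]; exact hcx)]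
    abel
  have hgO : refl Q c hQc * refl Q d hQd ∈ O Q := (O Q).mul_mem (refl_mem_O _) (refl_mem_O _)
  have hgD : refl Q c hQc * refl Q d hQd ∈ stabFamily D :=
    (stabFamily D).mul_mem (h.refl_mem_stabFamily hc _) (h.refl_mem_stabFamily hd _)
  -- the short case
  have short : (∃ g ∈ stabFamily D ⊓ E Q, g x = x - (c + d)) →
      ∃ s w : V, s ≠ 0 ∧ Has Q M s w ∧ ∃ S : Finset (Fin t), S.card ≤ 2 ∧
        (∀ k, k ∉ S → p k s = 0) ∧ ∃ k, k ∉ S ∧ p k w ≠ 0 := by
    rintro ⟨g, hg, hgx⟩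
    refine ⟨c + d, (-(Q x)⁻¹) • x, hcd0, has_of_move h hG hMO hH hx hg hgx hQcd hxcd, {i, j},
      Finset.card_le_two, ?_, l, ?_, ?_⟩
    · intro k hk
      simp only [Finset.mem_insert, Finset.mem_singleton, not_or] at hk
      exact hpix k hk.1 hk.2
    · simp only [Finset.mem_insert, Finset.mem_singleton, not_or]
      exact ⟨Ne.symm hil, Ne.symm hjl⟩
    · rw [map_smul]
      exact smul_ne_zero hκ hl
  by_cases hfull : ∃ m, p m x = 0
  · obtain ⟨m, hm⟩ := hfull
    apply short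
    obtain ⟨g, hg, hg'⟩ := exists_mem h hG m (hrep m) hgO hgD
    exact ⟨g, hg, by rw [hg' x hm, hgx]⟩
  push Not at hfull
  by_cases hsq : IsSquare (-1 : F)
  · apply short
    obtain ⟨e, he⟩ := hsq
    have he0 : e ≠ 0 := by
      rintro rfl
      rw [mul_zero] at he
      exact (neg_ne_zero.2 one_ne_zero) he
    refine ⟨_, ⟨hgD, refl_mul_refl_factor hG hQc hQd he0 ?_⟩, hgx⟩
    rw [← he]
    linear_combination hcd
  -- two pairs
  obtain ⟨l', hl'S⟩ := exists_notMem_finset ({i, j, l} : Finset (Fin t))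
    (lt_of_le_of_lt Finset.card_le_three (by omega))
  obtain ⟨k, hkS⟩ := exists_notMem_finset ({i, j, l, l'} : Finset (Fin t))
    (lt_of_le_of_lt Finset.card_le_four (by omega))
  obtain ⟨c', hc', d', hd', hQc', hQd', hcx2, hdx2, hcd2⟩ :=
    exists_pair_sing (hD l) (hD l') (h.mem l x) hl (h.mem l' x) (hfull l')
  simp only [Finset.mem_insert, Finset.mem_singleton, not_or] at hl'S
  obtain ⟨hl'i, hl'j, hl'l⟩ := hl'S
  have o1 : polar Q c c' = 0 := h.orth i l hil c hc c' hc'
  have o2 : polar Q c d' = 0 := h.orth i l' (Ne.symm hl'i) c hc d' hd'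
  have o3 : polar Q d c' = 0 := h.orth j l hjl d hd c' hc'
  have o4 : polar Q d d' = 0 := h.orth j l' (Ne.symm hl'j) d hd d' hd'
  have o5 : polar Q c' d' = 0 := h.orth l l' (Ne.symm hl'l) c' hc' d' hd'
  have hcx2' : polar Q c' x = Q c' := by rw [h.polar_right l x hc', hcx2]
  have hdx2' : polar Q d' x = Q d' := by rw [h.polar_right l' x hd', hdx2]
  have hgE : refl Q c hQc * refl Q d hQd * (refl Q c' hQc' * refl Q d' hQd') ∈ E Q := by
    have hd1 : Q d = -Q c := by linear_combination hcd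
    have hd2 : Q d' = -Q c' := by linear_combination hcd2
    by_cases hcc : IsSquare (Q c * Q c')
    · obtain ⟨e, he, hQ⟩ := exists_factor hQc hQc' hcc
      have e1 : refl Q c hQc * refl Q d hQd * (refl Q c' hQc' * refl Q d' hQd') =
          (refl Q c hQc * refl Q c' hQc') * (refl Q d hQd * refl Q d' hQd') := by
        have := refl_comm (Q := Q) hQd hQc' o3
        calc _ = refl Q c hQc * (refl Q d hQd * refl Q c' hQc') * refl Q d' hQd' := by group
          _ = _ := by rw [this]; group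
      rw [e1]
      exact (E Q).mul_mem (refl_mul_refl_factor hG hQc hQc' he hQ)
        (refl_mul_refl_factor hG hQd hQd' he (by rw [hd1, hd2, hQ]; ring))
    · have hcc' : IsSquare (Q c * Q d') := by
        have := isSquare_mul_of_not hsq hcc
        rw [hd2]
        obtain ⟨r, hr⟩ := this
        exact ⟨r, by rw [← hr]; ring⟩
      obtain ⟨e, he, hQ⟩ := exists_factor hQc hQd' hcc'
      have e1 : refl Q c hQc * refl Q d hQd * (refl Q c' hQc' * refl Q d' hQd') =
          (refl Q d hQd * refl Q c' hQc') * (refl Q c hQc * refl Q d' hQd') := by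
        have h1 := refl_comm (Q := Q) hQc hQd hpcd
        have h2 := refl_comm (Q := Q) hQc hQc' o1
        calc _ = (refl Q c hQc * refl Q d hQd) * refl Q c' hQc' * refl Q d' hQd' := by group
          _ = refl Q d hQd * (refl Q c hQc * refl Q c' hQc') * refl Q d' hQd' := by rw [h1]; group
          _ = _ := by rw [h2]; group
      rw [e1]
      exact (E Q).mul_mem (refl_mul_refl_factor hG hQd hQc' he (by
          rw [hd1]
          linear_combination -hQ + hd2))
        (refl_mul_refl_factor hG hQc hQd' he hQ)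
  have hgD' : refl Q c hQc * refl Q d hQd * (refl Q c' hQc' * refl Q d' hQd') ∈ stabFamily D :=
    (stabFamily D).mul_mem hgD
      ((stabFamily D).mul_mem (h.refl_mem_stabFamily hc' _) (h.refl_mem_stabFamily hd' _))
  have hgx' : (refl Q c hQc * refl Q d hQd * (refl Q c' hQc' * refl Q d' hQd')) x =
      x - (c + d + (c' + d')) := by
    show (refl Q c hQc * refl Q d hQd) (refl Q c' hQc' (refl Q d' hQd' x)) = _
    rw [refl_pair_apply h hd' hQd' hdx2, refl_pair_apply h hc' hQc' (by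
      rw [map_sub, h.other l l' (Ne.symm hl'l) d' hd', sub_zero]; exact hcx2)]
    have e2 : (refl Q c hQc * refl Q d hQd) (x - d' - c') =
        (refl Q c hQc * refl Q d hQd) x - (d' + c') := by
      rw [sub_sub, map_sub, map_add]
      have f1 : (refl Q c hQc * refl Q d hQd) d' = d' := by
        show refl Q c hQc (refl Q d hQd d') = d'
        rw [refl_apply (v := d), o4, mul_zero, zero_smul, sub_zero, refl_apply, o2, mul_zero, zero_smul,
          sub_zero]
      have f2 : (refl Q c hQc * refl Q d hQd) c' = c' := by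
        show refl Q c hQc (refl Q d hQd c') = c'
        rw [refl_apply (v := d), o3, mul_zero, zero_smul, sub_zero, refl_apply, o1, mul_zero, zero_smul,
          sub_zero]
      rw [f1, f2]
    rw [e2, hgx]
    abel
  have hQs : Q (c + d + (c' + d')) = 0 := by
    rw [Q_add, hQcd, Q_add, o5, polar_add_left, polar_add_right, polar_add_right, o1, o2, o3, o4]
    linear_combination hcd2
  have hxs : polar Q (c + d + (c' + d')) x = 0 := by
    rw [polar_add_left, hxcd, polar_add_left, hcx2', hdx2']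
    linear_combination hcd2
  -- the long singular vector `s` and a nonzero `w₁ ∈ D k`
  simp only [Finset.mem_insert, Finset.mem_singleton, not_or] at hkS
  obtain ⟨hki, hkj, hkl, hkl'⟩ := hkS
  have hsw := has_of_move h hG hMO hH hx ⟨hgD', hgE⟩ hgx' hQs hxs
  have hps : ∀ m, m ≠ l → m ≠ l' → p m (c' + d') = 0 := by
    intro m h1 h2
    rw [map_add, h.other m l h1 c' hc', h.other m l' h2 d' hd', add_zero]
  have hks : p k (c + d + (c' + d')) = 0 := by
    rw [map_add, hpix k hki hkj, hps k hkl hkl', add_zero]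
  set s := c + d + (c' + d') with hsdef
  obtain ⟨a, b, hab⟩ := (hD k).exists_fr (h.mem k x) (hfull k)
  obtain ⟨a', ha', hQa', haw', -⟩ := (hD k).exists_nonorth hq hab.ha hab.ha0 (h.mem k x) (hfull k)
    (h.mem k x) (hfull k)
  have hQa := (hD k).ne hab.ha hab.ha0
  have hQa0' : Q a' ≠ 0 := by rw [hQa']; exact hQa
  have fixs : ∀ z : V, p k z = 0 → ∀ c (_ : c ∈ D k) (hQc : Q c ≠ 0), refl Q c hQc z = z := by
    intro z hz c hc hQc
    rw [refl_apply, h.polar_right k z hc, hz, polar_zero_right, mul_zero, zero_smul, sub_zero]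
  obtain ⟨w₁, hw₁D, hw₁0, hw₁⟩ : ∃ w₁ ∈ D k, w₁ ≠ 0 ∧ Has Q M s w₁ := by
    have h1 := hsw.map (g := refl Q a hQa * refl Q a' hQa0')
      ((O Q).mul_mem (refl_mem_O _) (refl_mem_O _))
      (hH (h.refl_mul_refl_mem hG hab.ha ha' hQa hQa0' hQa'.symm))
    have e1 : (refl Q a hQa * refl Q a' hQa0') s = s := by
      show refl Q a hQa (refl Q a' hQa0' s) = s
      rw [fixs s hks a' ha', fixs s hks a hab.ha]
    set μ := (Q a')⁻¹ * polar Q a' x with hμ
    have hμ0 : μ ≠ 0 := by
      refine mul_ne_zero (inv_ne_zero hQa0') ?_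
      rw [h.polar_right k x ha', polar_comm]
      exact haw'
    have e2 : (refl Q a hQa * refl Q a' hQa0') ((-(Q x)⁻¹) • x) =
        (-(Q x)⁻¹) • x - (-(Q x)⁻¹ * μ) • refl Q a hQa a' := by
      rw [map_smul]
      have : (refl Q a hQa * refl Q a' hQa0') x = x - μ • refl Q a hQa a' := by
        show refl Q a hQa (refl Q a' hQa0' x) = _
        rw [refl_apply (v := a'), map_sub, map_smul, ← hμ]
        congr 1
        rw [refl_apply, h.polar_right k x hab.ha, hab.hax, mul_zero, zero_smul, sub_zero]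
      rw [this, smul_sub, smul_smul]
    rw [e1, e2] at h1
    have h2 := hsw.sub h1
    rw [sub_sub_cancel] at h2
    refine ⟨_, (D k).smul_mem _ (h.refl_mem hab.ha hQa ha'), ?_, h2⟩
    refine smul_ne_zero (mul_ne_zero hκ hμ0) ?_
    intro h0
    rw [LinearEquiv.map_eq_zero_iff] at h0
    rw [h0, QuadraticMap.map_zero] at hQa0'
    exact hQa0' rfl
  -- a short singular vector `e = c₂ + d₂` orthogonal to `s`
  have hd0 : d ≠ 0 := by
    rintro rfl
    exact hQd (QuadraticMap.map_zero Q)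
  obtain ⟨c₂, hc₂, d₂, hd₂, hQc₂, hQd₂, hcx₂, hdx₂, hcd₂⟩ :=
    exists_pair_sing (hD i) (hD j) hc hc0 hd hd0
  have hpis : p i s = c := by
    rw [hsdef, map_add, map_add, h.self i c hc, h.other i j hij d hd, hps i hil (Ne.symm hl'i)]
    simp
  have hpjs : p j s = d := by
    rw [hsdef, map_add, map_add, h.other j i hij.symm c hc, h.self j d hd,
      hps j hjl (Ne.symm hl'j)]
    simp
  have hpls : p l s = c' := by
    rw [hsdef, map_add, hpix l (Ne.symm hil) (Ne.symm hjl), map_add, h.self l c' hc',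
      h.other l l' (Ne.symm hl'l) d' hd']
    simp
  have hpcd₂ : polar Q c₂ d₂ = 0 := h.orth i j hij c₂ hc₂ d₂ hd₂
  have hes : polar Q (c₂ + d₂) s = 0 := by
    rw [polar_add_left, h.polar_right i s hc₂, h.polar_right j s hd₂, hpis, hpjs, hcx₂, hdx₂, hcd₂]
  have hQe : Q (c₂ + d₂) = 0 := by rw [Q_add, hpcd₂, add_zero, hcd₂]
  have hpe : ∀ m, m ≠ i → m ≠ j → p m (c₂ + d₂) = 0 := by
    intro m h1 h2
    rw [map_add, h.other m i h1 c₂ hc₂, h.other m j h2 d₂ hd₂, add_zero]
  have he0 : c₂ + d₂ ≠ 0 := by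
    intro h0
    have := congrArg (p i) h0
    rw [map_add, h.self i c₂ hc₂, h.other i j hij d₂ hd₂, add_zero, map_zero] at this
    rw [this, QuadraticMap.map_zero] at hQc₂
    exact hQc₂ rfl
  have hgs : (refl Q c₂ hQc₂ * refl Q d₂ hQd₂) s = s - (c₂ + d₂) := by
    show refl Q c₂ hQc₂ (refl Q d₂ hQd₂ s) = _
    rw [refl_pair_apply h hd₂ hQd₂ (by rw [hpjs]; exact hdx₂), refl_pair_apply h hc₂ hQc₂ (by
      rw [map_sub, h.other i j hij d₂ hd₂, sub_zero, hpis]; exact hcx₂)]
    abel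
  obtain ⟨g, hgH, hg⟩ := exists_mem h hG k (hrep k)
    ((O Q).mul_mem (refl_mem_O (Q := Q) hQc₂) (refl_mem_O (Q := Q) hQd₂))
    ((stabFamily D).mul_mem (h.refl_mem_stabFamily hc₂ hQc₂) (h.refl_mem_stabFamily hd₂ hQd₂))
  have hgs' : g s = s - (c₂ + d₂) := by rw [hg s hks, hgs]
  have hgO := E_le_O hgH.2
  -- `g` preserves `D k`
  have hgk : ∀ z ∈ D k, g z ∈ D k := by
    intro z hz
    refine h.mem_of fun m hmk => ?_
    -- the component of `g z` in `D m`
    by_contra hne
    obtain ⟨y, hy, hgy⟩ := (h.nondegOn hG.nondeg m).exists_polar_eq (h.mem m (g z)) hne 1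
    rw [← h.polar_left m (g z) hy] at hgy
    -- `y = g y'` with `y'` without component in `D k`
    have hy' : (refl Q c₂ hQc₂ * refl Q d₂ hQd₂) ((refl Q d₂ hQd₂ * refl Q c₂ hQc₂) y) = y := by
      show refl Q c₂ hQc₂ (refl Q d₂ hQd₂ (refl Q d₂ hQd₂ (refl Q c₂ hQc₂ y))) = y
      have e1 : ∀ z, refl Q d₂ hQd₂ (refl Q d₂ hQd₂ z) = z := fun z =>
        LinearEquiv.congr_fun (refl_mul_self hQd₂) z
      have e2 : ∀ z, refl Q c₂ hQc₂ (refl Q c₂ hQc₂ z) = z := fun z =>
        LinearEquiv.congr_fun (refl_mul_self hQc₂) z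
      rw [e1, e2]
    have hky : p k ((refl Q d₂ hQd₂ * refl Q c₂ hQc₂) y) = 0 := by
      show p k (refl Q d₂ hQd₂ (refl Q c₂ hQc₂ y)) = 0
      rw [h.proj_refl_ne hkj hd₂ hQd₂, h.proj_refl_ne hki hc₂ hQc₂, h.other k m hmk.symm y hy]
    have hgy' := hg _ hky
    rw [hy'] at hgy'
    rw [← hgy', polar_map hgO, h.polar_right k _ hz, hky, polar_zero_right] at hgy
    exact zero_ne_one hgy
  have hsw₂ := hw₁.map hgO (hH hgH)
  rw [hgs'] at hsw₂
  have hw₂D := hgk w₁ hw₁D
  have hw₂0 : g w₁ ≠ 0 := by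
    intro h0
    rw [LinearEquiv.map_eq_zero_iff] at h0
    exact hw₁0 h0
  have hks₂ : p k (s - (c₂ + d₂)) = 0 := by rw [map_sub, hks, hpe k hki hkj, sub_zero]
  -- make it non-orthogonal to `w₁`
  obtain ⟨y, hyD, hyH, hyw⟩ : ∃ y ∈ D k, Has Q M (s - (c₂ + d₂)) y ∧ polar Q w₁ y ≠ 0 := by
    by_cases h0 : polar Q w₁ (g w₁) = 0
    · obtain ⟨z, hz, hQz, hz1, hz2⟩ := (hD k).exists_nonorth hq hw₂D hw₂0 hw₂D hw₂0 hw₁D hw₁0
      have hQw₂ := (hD k).ne hw₂D hw₂0
      have hQz0 : Q z ≠ 0 := by rw [hQz]; exact hQw₂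
      have h1 := hsw₂.map (g := refl Q z hQz0 * refl Q (g w₁) hQw₂)
        ((O Q).mul_mem (refl_mem_O _) (refl_mem_O _))
        (hH (h.refl_mul_refl_mem hG hz hw₂D hQz0 hQw₂ hQz))
      have e1 : (refl Q z hQz0 * refl Q (g w₁) hQw₂) (s - (c₂ + d₂)) = s - (c₂ + d₂) := by
        show refl Q z hQz0 (refl Q (g w₁) hQw₂ (s - (c₂ + d₂))) = _
        rw [fixs _ hks₂ _ hw₂D, fixs _ hks₂ _ hz]
      rw [e1] at h1
      refine ⟨_, h.refl_mem hz hQz0 (h.refl_mem hw₂D hQw₂ hw₂D), h1, ?_⟩
      show polar Q w₁ (refl Q z hQz0 (refl Q (g w₁) hQw₂ (g w₁))) ≠ 0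
      have e2 : refl Q (g w₁) hQw₂ (g w₁) = -(g w₁) := by
        rw [refl_apply, polar_self']
        have : (Q (g w₁))⁻¹ * (2 * Q (g w₁)) = 2 := by field_simp
        rw [this, two_smul]
        abel
      rw [e2, refl_apply, polar_sub_right, polar_neg_right, h0, polar_smul_right, polar_neg_right,
        neg_zero, zero_sub, neg_ne_zero, smul_eq_mul]
      exact mul_ne_zero (mul_ne_zero (inv_ne_zero hQz0) (neg_ne_zero.2 (by rw [polar_comm]; exact hz1)))
        hz2
    · exact ⟨g w₁, hw₂D, hsw₂, h0⟩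
  have hss : polar Q s (s - (c₂ + d₂)) = 0 := by
    rw [polar_sub_right, polar_self', hQs, mul_zero, polar_comm Q s, hes, sub_zero]
  have hw₁s₂ : polar Q w₁ (s - (c₂ + d₂)) = 0 := by
    rw [h.polar_right k _ hw₁D, hks₂, polar_zero_right]
  have hsy : polar Q s y = 0 := by rw [h.polar_left k s hyD, hks, polar_zero_left]
  have h1 := hw₁.comm hyH hss hw₁s₂
  rw [hsy, zero_smul, mul_zero, add_zero, zero_sub] at h1
  have h2 := (h1.add_smul_self (polar Q w₁ y)).neg
  have e3 : -(-(polar Q w₁ y • s) + polar Q w₁ y • (s - (c₂ + d₂))) =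
      polar Q w₁ y • (c₂ + d₂) := by module
  rw [e3] at h2
  have hQe' : Q (polar Q w₁ y • (c₂ + d₂)) = 0 := by rw [QuadraticMap.map_smul, hQe, smul_zero]
  have h3 := h2.swap hQe'
  refine ⟨polar Q w₁ y • (c₂ + d₂), -(s - (c₂ + d₂)), smul_ne_zero hyw he0, h3, {i, j},
    Finset.card_le_two, ?_, l, ?_, ?_⟩
  · intro m hm
    simp only [Finset.mem_insert, Finset.mem_singleton, not_or] at hm
    rw [map_smul, hpe m hm.1 hm.2, smul_zero]
  · simp only [Finset.mem_insert, Finset.mem_singleton, not_or]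
    exact ⟨Ne.symm hil, Ne.symm hjl⟩
  · rw [map_neg, map_sub, hpls, hpe l (Ne.symm hil) (Ne.symm hjl), sub_zero]
    refine neg_ne_zero.2 ?_
    intro h0
    rw [h0, QuadraticMap.map_zero] at hQc'
    exact hQc' rfl

/-- The additive group of the `w` with `siegel s w ∈ M`. -/
def hasGroup (Q : QuadraticForm F V) (M : Subgroup (V ≃ₗ[F] V)) {s : V} (hs : Q s = 0) :
    AddSubgroup V where
  carrier := {w | Has Q M s w}
  add_mem' ha hb := Has.add ha hb
  zero_mem' := has_zero hs
  neg_mem' ha := Has.neg ha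

/-- One Siegel transformation at `s` with nonzero component in `D j` gives all those with second vector in
`D j`, if `s` has no component in two members `D j` and `D l`. -/
theorem has_member (hq : Nat.card F ≠ 3) (hG : Good Q) (h : Dec Q D p) (hD : ∀ i, AP Q (D i))
    (hMO : M ≤ O Q) (hH : stabFamily D ⊓ E Q ≤ M) {s w₀ : V} {j l : Fin t} (hjl : j ≠ l)
    (hsj : p j s = 0) (hsl : p l s = 0) (hw : Has Q M s w₀) (hwj : p j w₀ ≠ 0) {w : V}
    (hwD : w ∈ D j) : Has Q M s w := by
  obtain ⟨a, b, hab⟩ := (hD j).exists_fr (h.mem j w₀) hwj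
  obtain ⟨a', ha', hQa', haw', -⟩ := (hD j).exists_nonorth hq hab.ha hab.ha0 (h.mem j w₀) hwj
    (h.mem j w₀) hwj
  have hQa := (hD j).ne hab.ha hab.ha0
  have hQa0' : Q a' ≠ 0 := by rw [hQa']; exact hQa
  have fixs : ∀ c (hc : c ∈ D j) (hQc : Q c ≠ 0), refl Q c hQc s = s := by
    intro c hc hQc
    rw [refl_apply, h.polar_right j s hc, hsj, polar_zero_right, mul_zero, zero_smul, sub_zero]
  have fixs' : ∀ c (hc : c ∈ D l) (hQc : Q c ≠ 0), refl Q c hQc s = s := by
    intro c hc hQc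
    rw [refl_apply, h.polar_right l s hc, hsl, polar_zero_right, mul_zero, zero_smul, sub_zero]
  -- a nonzero vector of `D j`
  have h1 := hw.map (g := refl Q a hQa * refl Q a' hQa0')
    ((O Q).mul_mem (refl_mem_O _) (refl_mem_O _))
    (hH (h.refl_mul_refl_mem hG hab.ha ha' hQa hQa0' hQa'.symm))
  have e1 : (refl Q a hQa * refl Q a' hQa0') s = s := by
    show refl Q a hQa (refl Q a' hQa0' s) = s
    rw [fixs a' ha', fixs a hab.ha]
  set μ := (Q a')⁻¹ * polar Q a' w₀ with hμ
  have hμ0 : μ ≠ 0 := by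
    refine mul_ne_zero (inv_ne_zero hQa0') ?_
    rw [h.polar_right j w₀ ha', polar_comm]
    exact haw'
  have e2 : (refl Q a hQa * refl Q a' hQa0') w₀ = w₀ - μ • refl Q a hQa a' := by
    show refl Q a hQa (refl Q a' hQa0' w₀) = _
    rw [refl_apply (v := a'), map_sub, map_smul, ← hμ]
    congr 1
    rw [refl_apply, h.polar_right j w₀ hab.ha, hab.hax, mul_zero, zero_smul, sub_zero]
  rw [e1, e2] at h1
  have h2 := hw.sub h1
  rw [sub_sub_cancel] at h2
  have hmem : μ • refl Q a hQa a' ∈ D j :=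
    (D j).smul_mem _ (h.refl_mem hab.ha hQa ha')
  have hne : μ • refl Q a hQa a' ≠ 0 := by
    refine smul_ne_zero hμ0 ?_
    intro h0
    rw [LinearEquiv.map_eq_zero_iff] at h0
    rw [h0, QuadraticMap.map_zero] at hQa0'
    exact hQa0' rfl
  refine (hD j).mem_of_closed (hasGroup Q M hw.sing) ?_ (w := μ • refl Q a hQa a') h2 hmem hne hwD
  intro c hc hQc y hy hyD
  obtain ⟨c', hc', -, hQc'⟩ := (hD l).exists_value (Q c) hQc
  have hQc0' : Q c' ≠ 0 := by rw [hQc']; exact hQc
  have h3 := Has.map (show Has Q M s y from hy) (g := refl Q c hQc * refl Q c' hQc0')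
    ((O Q).mul_mem (refl_mem_O _) (refl_mem_O _))
    (hH (h.refl_mul_refl_mem hG hc hc' hQc hQc0' hQc'.symm))
  have e3 : (refl Q c hQc * refl Q c' hQc0') s = s := by
    show refl Q c hQc (refl Q c' hQc0' s) = s
    rw [fixs' c' hc', fixs c hc]
  have e4 : (refl Q c hQc * refl Q c' hQc0') y = refl Q c hQc y := by
    show refl Q c hQc (refl Q c' hQc0' y) = refl Q c hQc y
    rw [refl_apply (v := c'), h.orth l j hjl.symm c' hc' y hyD, mul_zero, zero_smul, sub_zero]
  rw [e3, e4] at h3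
  exact h3

omit [Finite F] in
/-- Passing to another member by a swap. -/
theorem has_other (hG : Good Q) (h : Dec Q D p)
    (hiso : ∀ i j, ∃ e : D i ≃ₗ[F] D j, ∀ z : D i, Q (e z : V) = Q (z : V))
    (hrep : ∀ m : Fin t, ∀ v : F, v ≠ 0 → ∃ y ∈ D m, Q y = v)
    (hMO : M ≤ O Q) (hH : stabFamily D ⊓ E Q ≤ M) {s : V} {i j m : Fin t} (hij : i ≠ j)
    (hmj : m ≠ j) (hsi : p i s = 0) (hsj : p j s = 0) (hsm : p m s = 0)
    (hw : ∀ w ∈ D j, Has Q M s w) {w : V} (hwD : w ∈ D i) : Has Q M s w := by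
  obtain ⟨e, he⟩ := hiso j i
  obtain ⟨τ, hτO, hτD, hτ0, hτj, -⟩ := DecTools.exists_swap h (Ne.symm hij) e he
  obtain ⟨g, hg, hg'⟩ := exists_mem h hG m (hrep m) hτO hτD
  have h1 := (hw _ (Submodule.coe_mem (e.symm ⟨w, hwD⟩))).map (E_le_O hg.2) (hH hg)
  rw [hg' s hsm, hτ0 s hsj hsi, hg' _ (h.other m j hmj _ (Submodule.coe_mem _)),
    hτj _ (Submodule.coe_mem _), Subtype.coe_eta, LinearEquiv.apply_symm_apply] at h1
  exact h1

/-- From `s` to singular vectors `u` of `D a + D b`. -/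
theorem has_of_two (hq : Nat.card F ≠ 3) (hG : Good Q) (h : Dec Q D p) (hD : ∀ i, AP Q (D i))
    (hiso : ∀ i j, ∃ e : D i ≃ₗ[F] D j, ∀ z : D i, Q (e z : V) = Q (z : V)) (ht : 5 ≤ t)
    (hMO : M ≤ O Q) (hH : stabFamily D ⊓ E Q ≤ M) {s u : V} {a b : Fin t} (hs0 : s ≠ 0)
    (hsa : p a s = 0) (hsb : p b s = 0) (ha : ∀ w ∈ D a, Has Q M s w) (hb : ∀ w ∈ D b, Has Q M s w)
    (hab : a ≠ b) (hu : Q u = 0) (hup : ∀ i, i ≠ a → i ≠ b → p i u = 0) {i : Fin t} (hia : i ≠ a)
    (hib : i ≠ b) {w : V} (hw : w ∈ D i) : Has Q M u w := by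
  have hus : u = p a u + p b u := by
    refine h.ext fun k => ?_
    rw [map_add]
    by_cases hka : k = a
    · subst hka
      rw [h.self k _ (h.mem k u), h.other k b hab _ (h.mem b u), add_zero]
    by_cases hkb : k = b
    · subst hkb
      rw [h.self k _ (h.mem k u), h.other k a hka _ (h.mem a u), zero_add]
    rw [hup k hka hkb, h.other k a hka _ (h.mem a u), h.other k b hkb _ (h.mem b u), add_zero]
  have h1 : Has Q M s u := by
    rw [hus]
    exact (ha _ (h.mem a u)).add (hb _ (h.mem b u))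
  have h2 := h1.swap hu
  obtain ⟨j, hj⟩ : ∃ j, p j s ≠ 0 := by
    by_contra hc
    push Not at hc
    exact hs0 (h.eq_zero hc)
  have hja : j ≠ a := by rintro rfl; exact hj hsa
  have hjb : j ≠ b := by rintro rfl; exact hj hsb
  have hj' : p j (-s) ≠ 0 := by rw [map_neg]; exact neg_ne_zero.2 hj
  obtain ⟨l, hl⟩ := exists_notMem_finset ({a, b, j} : Finset (Fin t))
    (lt_of_le_of_lt Finset.card_le_three (by omega))
  simp only [Finset.mem_insert, Finset.mem_singleton, not_or] at hl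
  have h3 : ∀ w ∈ D j, Has Q M u w := fun w hw =>
    has_member hq hG h hD hMO hH (Ne.symm hl.2.2) (hup j hja hjb) (hup l hl.1 hl.2.1) h2 hj' hw
  by_cases hij : i = j
  · subst hij
    exact h3 w hw
  obtain ⟨m, hm⟩ := exists_notMem_finset ({a, b, j, i} : Finset (Fin t))
    (lt_of_le_of_lt Finset.card_le_four (by omega))
  simp only [Finset.mem_insert, Finset.mem_singleton, not_or] at hm
  exact has_other hG h hiso (fun m v hv => by
    obtain ⟨y, hy, -, hQy⟩ := (hD m).exists_value v hv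
    exact ⟨y, hy, hQy⟩) hMO hH hij hm.2.2.1 (hup i hia hib) (hup j hja hjb) (hup m hm.1 hm.2.1) h3 hw

omit [Finite F] in
theorem exists_sing_pair' (h : Dec Q D p) (hrep : ∀ m : Fin t, ∀ v : F, v ≠ 0 → ∃ y ∈ D m, Q y = v)
    {a b : Fin t} (hab : a ≠ b) :
    ∃ u, Q u = 0 ∧ p a u ≠ 0 ∧ ∀ i, i ≠ a → i ≠ b → p i u = 0 := by
  obtain ⟨c, hc, hQc⟩ := hrep a 1 one_ne_zero
  obtain ⟨d, hd, hQd⟩ := hrep b (-1) (neg_ne_zero.2 one_ne_zero)
  refine ⟨c + d, ?_, ?_, ?_⟩
  · rw [Q_add, hQc, hQd, h.orth a b hab c hc d hd]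
    ring
  · rw [map_add, h.self a c hc, h.other a b hab d hd, add_zero]
    rintro rfl
    rw [QuadraticMap.map_zero] at hQc
    exact zero_ne_one hQc
  · intro i hia hib
    rw [map_add, h.other i a hia c hc, h.other i b hib d hd, add_zero]

/-- **Non-rigid overgroups contain `E Q`.** -/
theorem E_le_of_not_rigid (hq : Nat.card F ≠ 3) (hG : Good Q) (h : Dec Q D p)
    (hD : ∀ i, AP Q (D i)) (hiso : ∀ i j, ∃ e : D i ≃ₗ[F] D j, ∀ z : D i, Q (e z : V) = Q (z : V))
    (ht : 5 ≤ t) (hMO : M ≤ O Q) (hH : stabFamily D ⊓ E Q ≤ M) (hR : ¬ Rigid Q D M) : E Q ≤ M := by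
  classical
  have hrep : ∀ m : Fin t, ∀ v : F, v ≠ 0 → ∃ y ∈ D m, Q y = v := fun m v hv => by
    obtain ⟨y, hy, -, hQy⟩ := (hD m).exists_value v hv
    exact ⟨y, hy, hQy⟩
  obtain ⟨x, hx, hxD⟩ : ∃ x, Linked Q D M x ∧ ∀ i, x ∉ D i := by
    unfold Rigid at hR
    push Not at hR
    obtain ⟨i, a, ha, hQa, x, hQx, hM, hx⟩ := hR
    exact ⟨x, ⟨hQx, i, a, ha, hQa, hM⟩, hx⟩
  obtain ⟨x', hx', i₁, i₂, i₃, h12, h13, h23, hc1, hc2, hc3⟩ :=
    exists_three hq hG h hD hiso (by omega) hMO hH hx hxD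
  obtain ⟨s, w, hs0, hsw, S, hS, hpS, a, haS, haw⟩ :=
    exists_siegel hq hG h hD (by omega) hMO hH hx' h12 h13 h23 hc1 hc2 hc3
  obtain ⟨b, hb⟩ := exists_notMem_finset (insert a S)
    (lt_of_le_of_lt (Finset.card_insert_le _ _) (by omega))
  obtain ⟨m, hm⟩ := exists_notMem_finset (insert b (insert a S))
    (lt_of_le_of_lt (Finset.card_insert_le _ _)
      (by have := Finset.card_insert_le a S; omega))
  simp only [Finset.mem_insert, not_or] at hb hm
  have hab : a ≠ b := Ne.symm hb.1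
  have hA : ∀ w ∈ D a, Has Q M s w := fun w hw =>
    has_member hq hG h hD hMO hH hab (hpS a haS) (hpS b hb.2) hsw haw hw
  have hB : ∀ w ∈ D b, Has Q M s w := fun w hw =>
    has_other hG h hiso hrep hMO hH hb.1 hm.2.1 (hpS b hb.2) (hpS a haS) (hpS m hm.2.2) hA hw
  -- `u ∈ D a + D b`
  obtain ⟨u, hu, hua, hup⟩ := exists_sing_pair' h hrep hab
  have hu0 : u ≠ 0 := by
    rintro rfl
    exact hua (map_zero _)
  have hU : ∀ i, i ≠ a → i ≠ b → ∀ w ∈ D i, Has Q M u w := fun i hia hib w hw =>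
    has_of_two hq hG h hD hiso (by omega) hMO hH hs0 (hpS a haS) (hpS b hb.2) hA hB hab hu hup hia hib hw
  -- `c`, `d` two other members
  obtain ⟨c, hc⟩ := exists_notMem_finset ({a, b} : Finset (Fin t))
    (lt_of_le_of_lt Finset.card_le_two (by omega))
  obtain ⟨d, hd⟩ := exists_notMem_finset ({a, b, c} : Finset (Fin t))
    (lt_of_le_of_lt Finset.card_le_three (by omega))
  simp only [Finset.mem_insert, Finset.mem_singleton, not_or] at hc hd
  obtain ⟨hca, hcb⟩ := hc
  obtain ⟨hda, hdb, hdc⟩ := hd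
  have hcd : c ≠ d := Ne.symm hdc
  have full : ∀ v, Q v = 0 → (∀ i, i ≠ c → i ≠ d → p i v = 0) → Full Q M v := by
    intro v hv hvp
    have hV : ∀ i, i ≠ c → i ≠ d → ∀ w ∈ D i, Has Q M v w := fun i hic hid w hw =>
      has_of_two hq hG h hD hiso (by omega) hMO hH hu0 (hup c hca hcb) (hup d hda hdb)
        (hU c hca hcb) (hU d hda hdb) hcd hv hvp hic hid hw
    refine ⟨hv, fun z hz => ?_⟩
    -- the part of `z` in `D c + D d`
    set z' := p c z + p d z with hz'
    have hvz' : polar Q v z' = 0 := by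
      have h1 : polar Q (∑ i, p i v) z = ∑ i, polar Q (p i v) z :=
        map_sum ((polarBilin Q).flip z) (fun i => p i v) Finset.univ
      rw [h.sum, hz] at h1
      have h2 : ∀ i, i ≠ c → i ≠ d → polar Q (p i v) z = 0 := by
        intro i hic hid
        rw [hvp i hic hid, polar_zero_left]
      rw [← Finset.sum_subset (Finset.subset_univ ({c, d} : Finset (Fin t))) (by
        intro i _ hi
        simp only [Finset.mem_insert, Finset.mem_singleton, not_or] at hi
        exact h2 i hi.1 hi.2), Finset.sum_pair hcd] at h1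
      rw [hz', polar_add_right, h.polar_left c v (h.mem c z), h.polar_left d v (h.mem d z),
        ← h.polar_right c z (h.mem c v), ← h.polar_right d z (h.mem d v)]
      exact h1.symm
    have hVsum : ∀ S : Finset (Fin t), c ∉ S → d ∉ S → Has Q M v (∑ i ∈ S, p i z) := by
      intro S
      induction S using Finset.induction_on with
      | empty =>
        intro _ _
        rw [Finset.sum_empty]
        exact has_zero hv
      | insert i S hi ih =>
        intro hcS hdS
        simp only [Finset.mem_insert, not_or] at hcS hdS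
        rw [Finset.sum_insert hi]
        exact (hV i (Ne.symm hcS.1) (Ne.symm hdS.1) _ (h.mem i z)).add (ih hcS.2 hdS.2)
    have hzsum : z = (∑ i ∈ (Finset.univ : Finset (Fin t)) \ {c, d}, p i z) + z' := by
      rw [hz', ← Finset.sum_pair (f := fun i => p i z) hcd, Finset.sum_sdiff (Finset.subset_univ _), h.sum]
    have hz'H : Has Q M v z' := by
      have h1 : Has Q M u z' := (hU c hca hcb _ (h.mem c z)).add (hU d hda hdb _ (h.mem d z))
      obtain ⟨b', hb', hub'⟩ := (h.nondegOn hG.nondeg a).exists_polar_eq (h.mem a u) hua 1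
      have h2 : Has Q M v b' := hV a (Ne.symm hca) (Ne.symm hda) b' hb'
      have hub1 : polar Q u b' = 1 := by rw [h.polar_left a u hb']; exact hub'
      have huv : polar Q u v = 0 := by
        have hus : u = p a u + p b u := by
          refine h.ext fun k => ?_
          rw [map_add]
          by_cases hka : k = a
          · subst hka
            rw [h.self k _ (h.mem k u), h.other k b hab _ (h.mem b u), add_zero]
          by_cases hkb : k = b
          · subst hkb
            rw [h.self k _ (h.mem k u), h.other k a hka _ (h.mem a u), zero_add]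
          rw [hup k hka hkb, h.other k a hka _ (h.mem a u), h.other k b hkb _ (h.mem b u), add_zero]
        rw [hus, polar_add_left, h.polar_right a v (h.mem a u), h.polar_right b v (h.mem b u),
          hvp a (Ne.symm hca) (Ne.symm hda), hvp b (Ne.symm hcb) (Ne.symm hdb), polar_zero_right,
          polar_zero_right, add_zero]
      have hz'v : polar Q z' v = 0 := by rw [polar_comm]; exact hvz'
      have hz'b : polar Q z' b' = 0 := by
        rw [hz', polar_add_left, h.orth c a hca _ (h.mem c z) b' hb',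
          h.orth d a hda _ (h.mem d z) b' hb', add_zero]
      have h3 := h1.comm h2 huv hz'v
      rw [hub1, hz'b, zero_add, mul_one, one_smul] at h3
      have h4 : Has Q M v (Q z' • u) := by
        have hus : u = p a u + p b u := by
          refine h.ext fun k => ?_
          rw [map_add]
          by_cases hka : k = a
          · subst hka
            rw [h.self k _ (h.mem k u), h.other k b hab _ (h.mem b u), add_zero]
          by_cases hkb : k = b
          · subst hkb
            rw [h.self k _ (h.mem k u), h.other k a hka _ (h.mem a u), zero_add]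
          rw [hup k hka hkb, h.other k a hka _ (h.mem a u), h.other k b hkb _ (h.mem b u), add_zero]
        rw [hus, smul_add]
        exact (hV a (Ne.symm hca) (Ne.symm hda) _ ((D a).smul_mem _ (h.mem a u))).add
          (hV b (Ne.symm hcb) (Ne.symm hdb) _ ((D b).smul_mem _ (h.mem b u)))
      have h5 := h3.add h4
      rwa [sub_add_cancel] at h5
    rw [hzsum]
    refine (hVsum _ ?_ ?_).add hz'H
    · simp
    · simp
  -- a pair of nonorthogonal singular vectors of `D c + D d`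
  obtain ⟨v, hv, hvc, hvp⟩ := exists_sing_pair' h hrep hcd
  obtain ⟨e, he, hve⟩ := (h.nondegOn hG.nondeg c).exists_polar_eq (h.mem c v) hvc 1
  have he0 : e ≠ 0 := by
    rintro rfl
    rw [polar_zero_right] at hve
    exact zero_ne_one hve
  have hQe := (hD c).ne he he0
  have hev : polar Q e v = 1 := by rw [h.polar_right c v he, polar_comm]; exact hve
  have hv' : Q (refl Q e hQe v) = 0 := by rw [mem_O.1 (refl_mem_O hQe)]; exact hv
  refine E_le_of_full_pair hG (full v hv hvp) (full (refl Q e hQe v) hv' ?_) ?_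
  · intro i hic hid
    rw [h.proj_refl_ne hic he hQe, hvp i hic hid]
  · rw [refl_apply, polar_sub_right, polar_self', hv, polar_smul_right, hev, polar_comm Q v e, hev]
    simp only [mul_zero, mul_one, smul_eq_mul, zero_sub, ne_eq, neg_eq_zero, inv_eq_zero]
    exact hQe

end Planes

end Cfsg.Agent.H886.PlaneNonRigid
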