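import Cfsg.Agent.H886.Plane

/-!
Rigid overgroups of the stabiliser of an orthogonal decomposition into anisotropic planes
(`|F| ≠ 3`, at least three members): they stabilise the decomposition.
-/

set_option autoImplicit false

namespace Cfsg.Agent.H886.PlaneRigid

open QuadraticMap Cfsg.Agent.LieClassical.OrthCore Cfsg.Agent.LieClassical.OrthTrans
  Cfsg.Agent.LieClassical.OrthFinite Cfsg.Agent.LieClassical.OrthSimple Cfsg.Agent.H883.Bridge
  Cfsg.Agent.H883.Root Cfsg.Agent.H883.Sub Cfsg.Agent.H886.Decomp Cfsg.Agent.H886.Rigid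
  Cfsg.Agent.H886.Plane

section Squares

variable {F : Type*} [Field F]

/-- In a finite field the product of two non-squares is a square. -/
theorem isSquare_mul_of_not [Finite F] {a b : F} (ha : ¬ IsSquare a) (hb : ¬ IsSquare b) :
    IsSquare (a * b) := by
  classical
  have := Fintype.ofFinite F
  by_cases h0 : a * b = 0
  · rw [h0]
    exact IsSquare.zero
  · rw [← quadraticChar_neg_one_iff_not_isSquare] at ha hb
    rw [← quadraticChar_one_iff_isSquare h0, map_mul, ha, hb]
    norm_num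

/-- Two nonzero elements with a square product differ by a nonzero square factor. -/
theorem exists_factor {a b : F} (ha : a ≠ 0) (hb : b ≠ 0) (h : IsSquare (a * b)) :
    ∃ c : F, c ≠ 0 ∧ b = c * c * a := by
  obtain ⟨r, hr⟩ := h
  have hr0 : r ≠ 0 := by
    rintro rfl
    rw [mul_zero] at hr
    exact mul_ne_zero ha hb hr
  refine ⟨r * a⁻¹, mul_ne_zero hr0 (inv_ne_zero ha), ?_⟩
  field_simp
  linear_combination hr

/-- Among three nonzero elements of a finite field two differ by a square factor. -/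
theorem exists_same_class [Finite F] {t : ℕ} (ht : 3 ≤ t) (n : Fin t → F) (hn : ∀ i, n i ≠ 0) :
    ∃ i j l : Fin t, i ≠ j ∧ l ≠ i ∧ l ≠ j ∧ ∃ c : F, c ≠ 0 ∧ n j = c * c * n i := by
  let i0 : Fin t := ⟨0, by omega⟩
  let i1 : Fin t := ⟨1, by omega⟩
  let i2 : Fin t := ⟨2, by omega⟩
  have h01 : i0 ≠ i1 := by simp [i0, i1, Fin.ext_iff]
  have h02 : i0 ≠ i2 := by simp [i0, i2, Fin.ext_iff]
  have h12 : i1 ≠ i2 := by simp [i1, i2, Fin.ext_iff]
  by_cases hA : IsSquare (n i0 * n i1)
  · exact ⟨i0, i1, i2, h01, h02.symm, h12.symm, exists_factor (hn _) (hn _) hA⟩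
  by_cases hB : IsSquare (n i1 * n i2)
  · exact ⟨i1, i2, i0, h12, h01, h02, exists_factor (hn _) (hn _) hB⟩
  have h3 := isSquare_mul_of_not hA hB
  refine ⟨i0, i2, i1, h02, h01.symm, h12, exists_factor (hn _) (hn _) ?_⟩
  obtain ⟨r, hr⟩ := h3
  refine ⟨r * (n i1)⁻¹, ?_⟩
  have := hn i1
  field_simp
  linear_combination hr

end Squares

variable {F V : Type*} [Field F] [AddCommGroup V] [Module F V] {Q : QuadraticForm F V} {t : ℕ}
  {D D' : Fin t → Submodule F V} {p p' : Fin t → V →ₗ[F] V} {M : Subgroup (V ≃ₗ[F] V)}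

/-- The product of two reflections in vectors of the same norm, neither orthogonal nor proportional, is not
an involution. -/
theorem not_involution {w y : V} (hw : Q w ≠ 0) (hy : Q y ≠ 0) (hQ : Q y = Q w)
    (hwy : polar Q w y ≠ 0) (hind : ∀ c : F, y ≠ c • w) :
    (refl Q w hw * refl Q y hy) ((refl Q w hw * refl Q y hy) w) ≠ w := by
  set κ := (Q w)⁻¹ * polar Q w y with hκ
  have hκ0 : κ ≠ 0 := mul_ne_zero (inv_ne_zero hw) hwy
  have e1 : refl Q y hy w = w - κ • y := by
    rw [refl_apply, hQ, polar_comm Q y w]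
  have e2 : refl Q w hw w = -w := by
    rw [refl_apply, polar_self']
    have : (Q w)⁻¹ * (2 * Q w) = 2 := by field_simp
    rw [this, two_smul]
    abel
  have e3 : refl Q w hw y = y - κ • w := by rw [refl_apply]
  have e4 : refl Q y hy y = -y := by
    rw [refl_apply, polar_self']
    have : (Q y)⁻¹ * (2 * Q y) = 2 := by field_simp
    rw [this, two_smul]
    abel
  have f1 : (refl Q w hw * refl Q y hy) w = (κ * κ - 1) • w - κ • y := by
    show refl Q w hw (refl Q y hy w) = _
    rw [e1, map_sub, map_smul, e2, e3]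
    module
  have f2 : (refl Q w hw * refl Q y hy) y = κ • w - y := by
    show refl Q w hw (refl Q y hy y) = _
    rw [e4, map_neg, e3]
    module
  rw [f1, map_sub, map_smul, map_smul, f1, f2]
  intro h
  have h1 : (κ * (2 - κ * κ)) • y = (1 + κ * κ - (κ * κ - 1) * (κ * κ - 1)) • w := by
    have : (κ * (2 - κ * κ)) • y = ((κ * κ - 1) • ((κ * κ - 1) • w - κ • y) - κ • (κ • w - y)) +
      (κ * κ - (κ * κ - 1) * (κ * κ - 1)) • w := by module
    rw [this, h]
    module
  have h2 : κ * (2 - κ * κ) = 0 := by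
    by_contra h0
    apply hind ((κ * (2 - κ * κ))⁻¹ * (1 + κ * κ - (κ * κ - 1) * (κ * κ - 1)))
    rw [mul_smul, ← h1, smul_smul, inv_mul_cancel₀ h0, one_smul]
  have h3 : 2 - κ * κ = 0 := (mul_eq_zero.1 h2).resolve_left hκ0
  rw [h2, zero_smul] at h1
  have hw0 : w ≠ 0 := by
    rintro rfl
    exact hw (QuadraticMap.map_zero Q)
  have h4 := (smul_eq_zero.1 h1.symm).resolve_right hw0
  have h5 : (2 : F) = 0 := by
    have h6 : κ * κ = 2 := by linear_combination -h3
    rw [h6] at h4
    linear_combination h4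
  have h7 : κ * κ = 0 := by linear_combination h5 - h3
  exact hκ0 (mul_self_eq_zero.1 h7)

/-- A linear map injective from `W₁` into `W₂` of the same finite dimension is onto. -/
theorem exists_preimage {W₁ W₂ : Submodule F V} {k : ℕ} (hk : 0 < k)
    (h1 : Module.finrank F W₁ = k) (h2 : Module.finrank F W₂ = k) (f : V →ₗ[F] V)
    (hf : ∀ x ∈ W₁, f x ∈ W₂) (hinj : ∀ x ∈ W₁, f x = 0 → x = 0) {z : V} (hz : z ∈ W₂) :
    ∃ y ∈ W₁, f y = z := by
  have : FiniteDimensional F W₁ := Module.finite_of_finrank_pos (by omega)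
  have : FiniteDimensional F W₂ := Module.finite_of_finrank_pos (by omega)
  let φ : W₁ →ₗ[F] W₂ := f.restrict hf
  have hφ : Function.Injective φ := by
    rw [← LinearMap.ker_eq_bot, eq_bot_iff]
    intro x hx
    rw [LinearMap.mem_ker] at hx
    rw [Submodule.mem_bot]
    apply Subtype.ext
    exact hinj x x.2 (congrArg Subtype.val hx)
  have hsurj := (LinearMap.injective_iff_surjective_of_finrank_eq_finrank (by rw [h1, h2])).1 hφ
  obtain ⟨y, hy⟩ := hsurj ⟨z, hz⟩
  exact ⟨y, y.2, congrArg Subtype.val hy⟩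

/-- **Full support.** `D`, `D'` two decompositions into anisotropic planes without common vectors, `M` a
group of isometries containing the `r_a r_b` for `a, b` of the same norm in the same member of `D`, such that
elements of `M` mapping a nonzero vector of a member of `D'` into a member of `D'` permute the members of
`D'`.  Then the components of a nonzero vector of a member of `D'` are nonzero. -/
theorem full_support [Finite F] (hq : Nat.card F ≠ 3) (h : Dec Q D p) (hD : ∀ i, AP Q (D i))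
    (h' : Dec Q D' p') (hD' : ∀ i, AP Q (D' i)) (F1 : ∀ i j x, x ∈ D i → x ∈ D' j → x = 0)
    (F2 : ∀ m ∈ M, ∀ i j x, x ∈ D' i → x ≠ 0 → m x ∈ D' j → m ∈ stabFamily D')
    (F3 : ∀ i, ∀ a ∈ D i, ∀ b ∈ D i, ∀ (ha : Q a ≠ 0) (hb : Q b ≠ 0), Q a = Q b →
      refl Q a ha * refl Q b hb ∈ M) {j : Fin t} {x : V} (hx : x ∈ D' j) (hx0 : x ≠ 0)
    (i : Fin t) : p i x ≠ 0 := by
  intro hi
  obtain ⟨w, hw, hw0, -⟩ := (hD i).exists_value 1 one_ne_zero
  obtain ⟨y, hy, hQy, hwy, hind⟩ := (hD i).exists_pair hq hw hw0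
  have hQw := (hD i).ne hw hw0
  have hQy0 : Q y ≠ 0 := by rw [hQy]; exact hQw
  have hM := F3 i w hw y hy hQw hQy0 hQy.symm
  have hnot := not_involution hQw hQy0 hQy hwy hind
  set m := refl Q w hQw * refl Q y hQy0 with hm
  -- `m` moves only inside `D i`
  have hmem : ∀ z, z - m z ∈ D i := by
    intro z
    have e : m z = refl Q w hQw (refl Q y hQy0 z) := rfl
    rw [e, refl_apply, refl_apply, sub_sub_eq_add_sub, sub_sub_eq_add_sub]
    have : z + ((Q w)⁻¹ * polar Q w (z - ((Q y)⁻¹ * polar Q y z) • y)) • w +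
      ((Q y)⁻¹ * polar Q y z) • y - z = ((Q w)⁻¹ * polar Q w (z - ((Q y)⁻¹ * polar Q y z) • y)) • w +
      ((Q y)⁻¹ * polar Q y z) • y := by abel
    rw [this]
    exact (D i).add_mem ((D i).smul_mem _ hw) ((D i).smul_mem _ hy)
  have hmx : m x = x := by
    show refl Q w hQw (refl Q y hQy0 x) = x
    rw [refl_apply (v := y), h.polar_right i x hy, hi, polar_zero_right, mul_zero, zero_smul, sub_zero,
      refl_apply, h.polar_right i x hw, hi, polar_zero_right, mul_zero, zero_smul, sub_zero]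
  obtain ⟨σ, hσ⟩ := F2 m hM j j x hx hx0 (by rw [hmx]; exact hx)
  have hσ' : ∀ l z, z ∈ D' l → m z ∈ D' (σ l) := by
    intro l z hz
    rw [← hσ l]
    exact ⟨z, hz, rfl⟩
  by_cases hfix : ∀ l, σ l = l
  · -- `m` is trivial
    have hall : ∀ l z, z ∈ D' l → m z = z := by
      intro l z hz
      have h1 := hσ' l z hz
      rw [hfix l] at h1
      have h2 := F1 i l _ (hmem z) ((D' l).sub_mem hz h1)
      rw [sub_eq_zero] at h2
      exact h2.symm
    have hw' : m w = w := by
      nth_rewrite 1 [← h'.sum w]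
      rw [map_sum]
      conv_rhs => rw [← h'.sum w]
      exact Finset.sum_congr rfl fun l _ => hall l _ (h'.mem l w)
    exact hnot (by rw [hw', hw'])
  · push Not at hfix
    obtain ⟨l, hl⟩ := hfix
    have hsub : ∀ z ∈ D' l, z - m z = 0 → z = 0 := by
      intro z hz h0
      rw [sub_eq_zero] at h0
      refine h'.eq_zero_of_mem hl.symm hz ?_
      rw [h0]
      exact hσ' l z hz
    have hpre := fun z hz => exists_preimage (z := z) (W₁ := D' l) (W₂ := D i) (k := 2) (by omega)
      (hD' l).rank (hD i).rank (LinearMap.id - (m : V →ₗ[F] V)) (fun z _ => hmem z)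
      (fun z hz h0 => hsub z hz h0) hz
    obtain ⟨y', hy', hwy'⟩ := hpre w hw
    have hwy'' : w = y' - m y' := hwy'.symm
    have hmw : m w ∈ D i := by
      have := (D i).sub_mem hw (hmem w)
      rwa [sub_sub_cancel] at this
    obtain ⟨u, hu, hmu⟩ := hpre (m w) hmw
    have hmu' : m y' - m (m y') = u - m u := by
      rw [← map_sub, ← hwy'']
      exact hmu.symm
    have hy'0 : y' ≠ 0 := by
      rintro rfl
      rw [map_zero, sub_zero] at hwy''
      exact hw0 hwy''
    -- components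
    have c1 : p' l (m y') = 0 := h'.other l (σ l) hl.symm _ (hσ' l y' hy')
    have c2 : p' (σ l) (m y') = m y' := h'.self _ _ (hσ' l y' hy')
    have c3 : p' l u = u := h'.self _ _ hu
    have c4 : p' l (m u) = 0 := h'.other l (σ l) hl.symm _ (hσ' l u hu)
    have c5 : p' (σ l) u = 0 := h'.other (σ l) l hl _ hu
    have c6 : p' (σ l) (m u) = m u := h'.self _ _ (hσ' l u hu)
    have hσσ : σ (σ l) ≠ σ l := fun h1 => hl (σ.injective h1)
    have hmm := hσ' (σ l) (m y') (hσ' l y' hy')
    have c7 : p' (σ l) (m (m y')) = 0 := h'.other (σ l) (σ (σ l)) hσσ.symm _ hmm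
    have d1 := congrArg (p' (σ l)) hmu'
    rw [map_sub, map_sub, c2, c7, c5, c6, sub_zero, zero_sub, ← map_neg] at d1
    have d2 : y' = -u := m.injective d1
    have d3 := congrArg (p' l) hmu'
    rw [map_sub, map_sub, c1, c3, c4, sub_zero, zero_sub] at d3
    have d4 : p' l (m (m y')) = y' := (neg_eq_iff_eq_neg.1 d3).trans d2.symm
    have hσl : σ (σ l) = l := by
      by_contra hne
      rw [h'.other l (σ (σ l)) (fun h1 => hne h1.symm) _ hmm] at d4
      exact hy'0 d4.symm
    rw [hσl] at hmm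
    rw [h'.self l _ hmm] at d4
    apply hnot
    rw [hwy'', map_sub, map_sub, d4]

/-- **Rigid overgroups stabilise the decomposition.** -/
theorem le_stabFamily [Finite F] [FiniteDimensional F V] (hq : Nat.card F ≠ 3) (hG : Good Q)
    (h : Dec Q D p) (hD : ∀ i, AP Q (D i)) (ht : 3 ≤ t) (hMO : M ≤ O Q)
    (hH : stabFamily D ⊓ E Q ≤ M) (hR : Rigid Q D M) : M ≤ stabFamily D := by
  intro g hg
  by_contra hgD
  have hgO := hMO hg
  have hfin : ∀ i, Module.finrank F (D i) = 2 := fun i => (hD i).rank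
  have hconn : ∀ v : F, v ≠ 0 → ∀ l, Conn Q (D l) v := by
    intro v hv l
    obtain ⟨y, hy, hy0, hQy⟩ := (hD l).exists_value v hv
    rw [← hQy]
    exact (hD l).conn hq hy hy0
  set D' : Fin t → Submodule F V := fun i => (D i).map (g : V →ₗ[F] V) with hD'def
  have h' := h.map hgO
  have hD' : ∀ i, AP Q (D' i) := by
    intro i
    refine ⟨?_, ?_, ?_⟩
    · rw [← hfin i]
      exact LinearEquiv.finrank_map_eq g (D i)
    · exact h'.nondegOn hG.nondeg i
    · rintro _ ⟨x, hx, rfl⟩ hx0
      have h1 : Q x = 0 := by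
        rw [← mem_O.1 hgO x]
        exact hx0
      rw [(hD i).aniso x hx h1, map_zero]
  have F1 : ∀ i j x, x ∈ D i → x ∈ D' j → x = 0 := by
    intro i j x hx hx'
    by_contra hx0
    have hQx := (hD i).ne hx hx0
    exact not_mem_map h hG (by omega) hfin hMO hH hR hg hgD hx hx' hQx (hconn _ hQx)
  have F2 : ∀ m ∈ M, ∀ i j x, x ∈ D' i → x ≠ 0 → m x ∈ D' j → m ∈ stabFamily D' := by
    intro m hm i j x hx hx0 hmx
    have hQx := (hD' i).ne hx hx0
    exact mem_stabFamily_map' h hG (by omega) hfin hMO hH hR hg hx hQx (hconn _ hQx) hm hmx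
  have F3 : ∀ i, ∀ a ∈ D i, ∀ b ∈ D i, ∀ (ha : Q a ≠ 0) (hb : Q b ≠ 0), Q a = Q b →
      refl Q a ha * refl Q b hb ∈ M := by
    intro i a ha b hb hQa hQb hab
    exact hH (h.refl_mul_refl_mem hG ha hb hQa hQb hab)
  have full : ∀ j x, x ∈ D' j → x ≠ 0 → ∀ i, p i x ≠ 0 := fun j x hx hx0 i =>
    full_support hq h hD h' hD' F1 F2 F3 hx hx0 i
  -- a nonzero vector of the first member of `D'`
  let j0 : Fin t := ⟨0, by omega⟩
  obtain ⟨x, hx, hx0, -⟩ := (hD' j0).exists_value 1 one_ne_zero
  have hfr : ∀ i, ∃ a ∈ D i, a ≠ 0 ∧ polar Q a x = 0 := by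
    intro i
    obtain ⟨a, b, hab⟩ := (hD i).exists_fr (h.mem i x) (full j0 x hx hx0 i)
    exact ⟨a, hab.ha, hab.ha0, by rw [h.polar_right i x hab.ha]; exact hab.hax⟩
  choose a ha ha0 hax using hfr
  obtain ⟨i, j, l, hij, hli, hlj, c, hc0, hc⟩ := exists_same_class ht (fun i => Q (a i))
    (fun i => (hD i).ne (ha i) (ha0 i))
  have hu : c • a i ∈ D i := (D i).smul_mem _ (ha i)
  have hu0 : c • a i ≠ 0 := smul_ne_zero hc0 (ha0 i)
  have hQu := (hD i).ne hu hu0
  have hQw := (hD j).ne (ha j) (ha0 j)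
  have hQuw : Q (c • a i) = Q (a j) := by
    rw [QuadraticMap.map_smul, smul_eq_mul]
    exact hc.symm
  have hux : polar Q (c • a i) x = 0 := by rw [polar_smul_left, hax, smul_zero]
  have hmM := hH (h.refl_mul_refl_mem hG hu (ha j) hQu hQw hQuw)
  set m := refl Q (c • a i) hQu * refl Q (a j) hQw with hm
  have hmx : m x = x := by
    show refl Q (c • a i) hQu (refl Q (a j) hQw x) = x
    rw [refl_apply (v := a j), hax, mul_zero, zero_smul, sub_zero, refl_apply, hux, mul_zero, zero_smul,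
      sub_zero]
  obtain ⟨σ, hσ⟩ := F2 m hmM j0 j0 x hx hx0 (by rw [hmx]; exact hx)
  have hσ' : ∀ l z, z ∈ D' l → m z ∈ D' (σ l) := by
    intro l z hz
    rw [← hσ l]
    exact ⟨z, hz, rfl⟩
  have hσ0 : σ j0 = j0 := by
    by_contra hne
    have h1 := hσ' j0 x hx
    rw [hmx] at h1
    exact hx0 (h'.eq_zero_of_mem (Ne.symm hne) hx h1)
  have huw : polar Q (c • a i) (a j) = 0 := h.orth i j hij _ hu _ (ha j)
  have hdiff : ∀ z, z - m z = ((Q (a j))⁻¹ * polar Q (a j) z) • a j +
      ((Q (c • a i))⁻¹ * polar Q (c • a i) z) • (c • a i) := by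
    intro z
    have e : m z = refl Q (c • a i) hQu (refl Q (a j) hQw z) := rfl
    rw [e, refl_apply, refl_apply, polar_sub_right, polar_smul_right, huw]
    module
  have htriv : ∀ y ∈ D' j0, polar Q (c • a i) y = 0 := by
    intro y hy
    have h1 : y - m y ∈ D' j0 := by
      refine (D' j0).sub_mem hy ?_
      have := hσ' j0 y hy
      rwa [hσ0] at this
    have h2 : p l (y - m y) = 0 := by
      rw [hdiff, map_add, map_smul, map_smul, h.other l j hlj _ (ha j), h.other l i hli _ hu]
      simp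
    have h3 : y - m y = 0 := by
      by_contra h0
      exact full j0 _ h1 h0 l h2
    have h4 := congrArg (p i) h3
    rw [hdiff, map_add, map_smul, map_smul, h.other i j hij _ (ha j), h.self i _ hu, smul_zero,
      zero_add, map_zero] at h4
    have h5 := (smul_eq_zero.1 h4).resolve_right hu0
    exact (mul_eq_zero.1 h5).resolve_left (inv_ne_zero hQu)
  apply hu0
  refine (hD i).nd _ hu fun z hz => ?_
  obtain ⟨y, hy, rfl⟩ := exists_preimage (W₁ := D' j0) (W₂ := D i) (k := 2) (by omega)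
    (hD' j0).rank (hD i).rank (p i) (fun z _ => h.mem i z) (fun z hz h0 => by
      by_contra hz0
      exact full j0 z hz hz0 i h0) hz
  rw [← h.polar_right i y hu]
  exact htriv y hy

end Cfsg.Agent.H886.PlaneRigid
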